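import Cfsg.Agent.LES.Setting

/-! Eigenspaces of subgroups of an extraspecial group over a field of characteristic not two. -/

set_option autoImplicit false

namespace Cfsg.Agent.Mon.Bv

open Module Subgroup Cfsg.Agent.TT Cfsg.Agent.LES

variable {G : Type*} [Group G] {F : Type*} [Field F] {V V' : Type*} [AddCommGroup V] [Module F V]
  [AddCommGroup V'] [Module F V']

open Classical in
/-- The commutator sign. -/
noncomputable def sg (x y : G) : ℤ := if x * y = y * x then 1 else -1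

theorem sg_pos {x y : G} (h : x * y = y * x) : sg x y = 1 := if_pos h

theorem sg_neg {x y : G} (h : x * y ≠ y * x) : sg x y = -1 := if_neg h

theorem sg_sq (x y : G) : sg x y * sg x y = 1 := by unfold sg; split_ifs <;> norm_num

theorem sg_comm (x y : G) : sg x y = sg y x := by
  classical exact if_congr eq_comm rfl rfl

theorem sg_eq_one {x y : G} : sg x y = 1 ↔ x * y = y * x := by
  unfold sg; split_ifs with h <;> simp [h]

theorem sg_conj (c x y : G) : sg (c * x * c⁻¹) (c * y * c⁻¹) = sg x y := by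
  classical exact if_congr (by rw [conj_mul, conj_mul, mul_left_inj, mul_right_inj]) rfl rfl

theorem sg_mul {Q : Subgroup G} {z x y t : G} (h : XS Q z) (hx : x ∈ Q) (hy : y ∈ Q)
    (ht : t ∈ Q) : sg (x * y) t = sg x t * sg y t := by
  by_cases h1 : x * t = t * x <;> by_cases h2 : y * t = t * y
  · rw [sg_pos h1, sg_pos h2, sg_pos (comm_mul_left h1 h2), mul_one]
  · rw [sg_pos h1, sg_neg h2, one_mul, sg_neg fun e => h2 ?_]
    simpa using comm_mul_left (comm_inv_left h1) e
  · rw [sg_neg h1, sg_pos h2, mul_one, sg_neg fun e => h1 ?_]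
    simpa using comm_mul_left e (comm_inv_left h2)
  · rw [sg_neg h1, sg_neg h2, sg_pos (h.mul_comm_of_not_comm ht hx hy h1 h2)]; norm_num

theorem sg_mul' {Q : Subgroup G} {z x y t : G} (h : XS Q z) (hx : x ∈ Q) (hy : y ∈ Q)
    (ht : t ∈ Q) : sg t (x * y) = sg t x * sg t y := by
  rw [sg_comm, sg_mul h hx hy ht, sg_comm x, sg_comm y]

/-- `sg · t` is a character of the `2`-group `K`. -/
structure Ch (K : Subgroup G) (t : G) : Prop where
  two : IsPGroup 2 K
  mul : ∀ x ∈ K, ∀ y ∈ K, sg (x * y) t = sg x t * sg y t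

theorem ch_of {Q K : Subgroup G} {z t : G} (h : XS Q z) (hK : K ≤ Q) (ht : t ∈ Q) : Ch K t :=
  ⟨h.isPGroup.to_le hK, fun _ hx _ hy => sg_mul h (hK hx) (hK hy) ht⟩

variable (ρ : G →* End F V)

/-- The eigenspace of `K` for the character `sg · t`. -/
def Eig (K : Subgroup G) (t : G) : Submodule F V where
  carrier := {x | ∀ k ∈ K, ρ k x = sg k t • x}
  add_mem' hx hy h hh := by rw [map_add, hx h hh, hy h hh, smul_add]
  zero_mem' h _ := by simp
  smul_mem' c x hx h hh := by rw [map_smul, hx h hh, smul_comm]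

/-- The `-1`-eigenspace. -/
def Neg (x : G) : Submodule F V where
  carrier := {v | ρ x v = -v}
  add_mem' {a b} (ha : _ = _) (hb : _ = _) := show _ = _ by rw [map_add, ha, hb, neg_add]
  zero_mem' := by simp
  smul_mem' c v (hv : _ = _) := show _ = _ by rw [map_smul, hv, smul_neg]

/-- The stabiliser of a vector. -/
def Fx (b : V) : Subgroup G where
  carrier := {k | ρ k b = b}
  one_mem' := by simp
  mul_mem' {x y} (hx : _ = _) (hy : _ = _) := show _ = _ by rw [map_mul, End.mul_apply, hy, hx]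
  inv_mem' {x} (hx : _ = _) := show _ = _ by
    conv_lhs => rw [← hx]
    rw [← End.mul_apply, ← map_mul, inv_mul_cancel, map_one, End.one_apply]

variable {ρ}

theorem mem_Neg {x : G} {v : V} : v ∈ Neg ρ x ↔ ρ x v = -v := Iff.rfl

theorem mem_Fx {k : G} {b : V} : k ∈ Fx ρ b ↔ ρ k b = b := Iff.rfl

theorem app_app (a b : G) (v : V) : ρ a (ρ b v) = ρ (a * b) v := by rw [map_mul, End.mul_apply]

theorem inv_app (a : G) (v : V) : ρ a⁻¹ (ρ a v) = v := by simp [app_app]

theorem app_inv (a : G) (v : V) : ρ a (ρ a⁻¹ v) = v := by simp [app_app]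

theorem app_ne {v : V} (h : v ≠ 0) (a : G) : ρ a v ≠ 0 := fun e => h (by
  rw [← inv_app (ρ := ρ) a v, e, map_zero])

theorem comm_mem_Fx {b : V} {x y : G} {c d : F} (hx : ρ x b = c • b) (hy : ρ y b = d • b) :
    x⁻¹ * y⁻¹ * x * y ∈ Fx ρ b := by
  have : ρ (x * y) b = ρ (y * x) b := by
    simp only [← app_app, hx, hy, map_smul, smul_smul, mul_comm]
  rw [mem_Fx, show x⁻¹ * y⁻¹ * x * y = (y * x)⁻¹ * (x * y) by group, ← app_app, this, inv_app]

theorem mem_Eig_one {K : Subgroup G} {x : V} : x ∈ Eig ρ K 1 ↔ ∀ k ∈ K, ρ k x = x :=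
  forall₂_congr fun h _ => by rw [sg_pos (by simp), one_smul]

theorem Eig_congr {K : Subgroup G} {t u : G} (e : ∀ k ∈ K, sg k t = sg k u) :
    Eig ρ K t = Eig ρ K u :=
  Submodule.ext fun _ => forall₂_congr fun h hh => by rw [e h hh]

theorem Eig_eqv {Q K : Subgroup G} {z t u : G} (h : XS Q z) (hK : K ≤ Q) (e : Eqv z t u) :
    Eig ρ K t = Eig ρ K u := Eig_congr fun k hk => by
  classical exact if_congr (eq_comm.trans ((eqv_comm_iff h (hK hk) e).trans eq_comm)) rfl rfl

theorem Eig_mono {K L : Subgroup G} (h : K ≤ L) (t : G) : Eig ρ L t ≤ Eig ρ K t :=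
  fun _ hx k hk => hx k (h hk)

theorem Eig.fix {K : Subgroup G} {t k : G} {x : V} (hx : x ∈ Eig ρ K t) (hk : k ∈ K)
    (e : k * t = t * k) : ρ k x = x := by rw [hx k hk, sg_pos e, one_smul]

theorem Eig.neg {K : Subgroup G} {t k : G} {x : V} (hx : x ∈ Eig ρ K t) (hk : k ∈ K)
    (e : k * t ≠ t * k) : x ∈ Neg ρ k := by rw [mem_Neg, hx k hk, sg_neg e, neg_one_zsmul]

theorem map_mem_Eig {K L : Subgroup G} {t c : G} (hc : ∀ h ∈ L, c⁻¹ * h * c ∈ K) {x : V}
    (hx : x ∈ Eig ρ K t) : ρ c x ∈ Eig ρ L (c * t * c⁻¹) := fun h hh => by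
  rw [app_app, show h * c = c * (c⁻¹ * h * c) by group, ← app_app, hx _ (hc h hh), map_zsmul,
    ← sg_conj c]
  congr 2; group

theorem map_mem_Neg {x : G} {v : V} (hv : v ∈ Neg ρ x) (c : G) : ρ c v ∈ Neg ρ (c * x * c⁻¹) := by
  rw [mem_Neg, app_app, inv_mul_cancel_right, ← app_app, hv, map_neg]

theorem finrank_le_of_map [FiniteDimensional F V] {U W : Submodule F V} (c : G)
    (h : ∀ v ∈ U, ρ c v ∈ W) : finrank F U ≤ finrank F W :=
  LinearMap.finrank_le_finrank_of_injective (f := (ρ c).restrict h) fun a b e =>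
    Subtype.ext (by rw [← inv_app (ρ := ρ) c a, ← inv_app (ρ := ρ) c b]
                    exact congrArg _ (congrArg Subtype.val e))

/-- A vector fixed by `C(z)` gives an equivariant family on the class of `z`. -/
theorem exists_family {z : G} {b : V} (h : ∀ c, c * z = z * c → ρ c b = b) :
    ∃ β : G → V, β z = b ∧ ∀ g x, IsConj z x → ρ g (β x) = β (g * x * g⁻¹) := by
  classical
  have key : ∀ {g k : G}, g * z * g⁻¹ = k * z * k⁻¹ → ρ g b = ρ k b := fun {g k} e => by
    rw [← mul_inv_cancel_left k g, ← app_app, h _ (comm_of_conj_eq (by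
      rw [show k⁻¹ * g * z * (k⁻¹ * g)⁻¹ = k⁻¹ * (g * z * g⁻¹) * k by group, e]; group))]
  refine ⟨fun x => if e : IsConj z x then ρ (isConj_iff.1 e).choose b else 0, ?_, fun g x hx => ?_⟩
  · have := (isConj_iff.1 (IsConj.refl z)).choose_spec
    simp only [dif_pos (IsConj.refl z)]
    exact h _ (comm_of_conj_eq this)
  · have h1 : IsConj z (g * x * g⁻¹) := hx.trans (isConj_iff.2 ⟨g, rfl⟩)
    simp only [dif_pos hx, dif_pos h1]
    rw [app_app]
    refine key ?_
    rw [(isConj_iff.1 h1).choose_spec]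
    conv_rhs => rw [← (isConj_iff.1 hx).choose_spec]
    group

/-- The action on homomorphisms. -/
noncomputable abbrev Hm (ρ : G →* End F V) (ρ' : G →* End F V') : G →* End F (V →ₗ[F] V') :=
  Representation.linHom ρ ρ'

theorem Hm_apply {ρ' : G →* End F V'} (g : G) (f : V →ₗ[F] V') (v : V) :
    Hm ρ ρ' g f v = ρ' g (f (ρ g⁻¹ v)) := rfl

theorem mem_Fx_Hm {ρ' : G →* End F V'} {g : G} {f : V →ₗ[F] V'} :
    g ∈ Fx (Hm ρ ρ') f ↔ ∀ v, f (ρ g v) = ρ' g (f v) :=
  ⟨fun h v => by rw [← LinearMap.congr_fun (mem_Fx.1 h) (ρ g v), Hm_apply, inv_app], fun h =>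
    LinearMap.ext fun v => by rw [Hm_apply, ← h, app_inv]⟩

variable [NeZero (2 : F)]

theorem eq_zero_of_neg (F : Type*) [Field F] [NeZero (2 : F)] [Module F V] {x : V} (h : x = -x) :
    x = 0 := by
  have : (2 : F) • x = 0 := by rw [two_smul]; exact add_eq_zero_iff_eq_neg.2 h
  exact (smul_eq_zero.1 this).resolve_left two_ne_zero

theorem eq_zero_of_sg {K L : Subgroup G} {t u k : G} {x : V} (hx : x ∈ Eig ρ K t)
    (hx' : x ∈ Eig ρ L u) (hk : k ∈ K) (hk' : k ∈ L) (e : sg k t ≠ sg k u) : x = 0 := by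
  have := (hx k hk).symm.trans (hx' k hk')
  unfold sg at e this
  split_ifs at e this <;> simp only [ne_eq, not_true_eq_false, one_smul, neg_one_zsmul] at e this
  exacts [eq_zero_of_neg F this, eq_zero_of_neg F this.symm]

theorem mem_of_two_smul {M : Submodule F V} {x : V} (h : x + x ∈ M) : x ∈ M := by
  have := M.smul_mem (2 : F)⁻¹ h
  rwa [← two_smul F, smul_smul, inv_mul_cancel₀ two_ne_zero, one_smul] at this

/-- Splitting into the eigenspaces of an involution. -/
theorem mem_of_split {M : Submodule F V} {x : G} {v : V} (h1 : v + ρ x v ∈ M) (h2 : v - ρ x v ∈ M) :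
    v ∈ M := mem_of_two_smul (by simpa using M.add_mem h1 h2)

omit [NeZero (2 : F)] in
theorem sub_mem_Neg {x : G} (h : x * x = 1) (v : V) : v - ρ x v ∈ Neg ρ x := by
  rw [mem_Neg, map_sub, app_app, h, map_one, End.one_apply, neg_sub]

omit [NeZero (2 : F)] in
theorem add_fix {x : G} (h : x * x = 1) (v : V) : ρ x (v + ρ x v) = v + ρ x v := by
  rw [map_add, app_app, h, map_one, End.one_apply, add_comm]

variable [Finite G]

/-- The elements of a subgroup. -/
noncomputable def fs (K : Subgroup G) : Finset G := (K : Set G).toFinite.toFinset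

@[simp] theorem mem_fs {K : Subgroup G} {x : G} : x ∈ fs K ↔ x ∈ K := by simp [fs]

theorem card_fs (K : Subgroup G) : (fs K).card = Nat.card K :=
  (Set.ncard_eq_toFinset_card _ _).symm

theorem card_ne {K : Subgroup G} (h : IsPGroup 2 K) : (Nat.card K : F) ≠ 0 := by
  obtain ⟨n, e⟩ := IsPGroup.iff_card.1 h
  rw [e]; push_cast; exact pow_ne_zero _ two_ne_zero

variable (ρ)

/-- The projection on the eigenspace. -/
noncomputable def pr (K : Subgroup G) (t : G) : End F V :=
  (Nat.card K : F)⁻¹ • ∑ k ∈ fs K, sg k t • ρ k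

variable {ρ}

theorem sum_mul_left {M : Type*} [AddCommMonoid M] {K : Subgroup G} {k : G} (hk : k ∈ K)
    (f : G → M) : ∑ h ∈ fs K, f (k * h) = ∑ h ∈ fs K, f h :=
  Finset.sum_equiv (Equiv.mulLeft k) (fun h => by simp [K.mul_mem_cancel_left hk]) fun _ _ => rfl

theorem sum_mul_right {M : Type*} [AddCommMonoid M] {K : Subgroup G} {k : G} (hk : k ∈ K)
    (f : G → M) : ∑ h ∈ fs K, f (h * k) = ∑ h ∈ fs K, f h :=
  Finset.sum_equiv (Equiv.mulRight k) (fun h => by simp [K.mul_mem_cancel_right hk]) fun _ _ => rfl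

omit [NeZero (2 : F)] in
theorem pr_apply (K : Subgroup G) (t : G) (x : V) :
    pr ρ K t x = (Nat.card K : F)⁻¹ • ∑ k ∈ fs K, sg k t • ρ k x := by
  simp only [pr, LinearMap.smul_apply, LinearMap.sum_apply]

omit [NeZero (2 : F)] in
theorem pr_mem {K : Subgroup G} {t : G} (h : Ch K t) (x : V) : pr ρ K t x ∈ Eig ρ K t := by
  intro k hk
  rw [pr_apply, map_smul, map_sum, smul_comm (sg k t), ← sum_mul_left hk fun a => sg a t • ρ a x,
    Finset.smul_sum (r := sg k t)]
  congr 1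
  refine Finset.sum_congr rfl fun a ha => ?_
  rw [h.mul k hk a (mem_fs.1 ha), smul_smul, ← mul_assoc, sg_sq, one_mul, map_zsmul, app_app]

theorem pr_id {K : Subgroup G} {t : G} (h : Ch K t) {x : V} (hx : x ∈ Eig ρ K t) :
    pr ρ K t x = x := by
  rw [pr_apply, Finset.sum_congr (g := fun _ => x) rfl fun a ha => by
    rw [hx a (mem_fs.1 ha), smul_smul, sg_sq, one_smul], Finset.sum_const, card_fs,
    ← Nat.cast_smul_eq_nsmul F, smul_smul, inv_mul_cancel₀ (card_ne h.two), one_smul]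

omit [NeZero (2 : F)] in
theorem pr_mem_of {K : Subgroup G} (t : G) {W : Submodule F V} {x : V} (h : ∀ k ∈ K, ρ k x ∈ W) :
    pr ρ K t x ∈ W := by
  rw [pr_apply]
  exact W.smul_mem _ (sum_mem fun k hk => zsmul_mem (h k (mem_fs.1 hk)) _)

omit [NeZero (2 : F)] in
theorem pr_app {K : Subgroup G} {t k : G} (h : Ch K t) (hk : k ∈ K) (x : V) :
    pr ρ K t (ρ k x) = sg k t • pr ρ K t x := by
  rw [pr_apply, pr_apply, smul_comm (sg k t), ← sum_mul_right hk fun a => sg a t • ρ a x,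
    Finset.smul_sum (r := sg k t)]
  congr 1
  refine Finset.sum_congr rfl fun a ha => ?_
  rw [h.mul a (mem_fs.1 ha) k hk, smul_smul, mul_left_comm, sg_sq, mul_one, app_app]

omit [NeZero (2 : F)] in
theorem app_pr {K : Subgroup G} {t k : G} (h : Ch K t) (hk : k ∈ K) (x : V) :
    ρ k (pr ρ K t x) = pr ρ K t (ρ k x) := by rw [pr_app h hk, pr_mem h x k hk]

theorem pr_eq_zero {K L : Subgroup G} {t u k : G} (h : Ch K t) {x : V} (hx : x ∈ Eig ρ L u)
    (hk : k ∈ K) (hk' : k ∈ L) (e : sg k t ≠ sg k u) : pr ρ K t x = 0 := by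
  have := pr_app (ρ := ρ) h hk x
  rw [hx k hk', map_zsmul] at this
  unfold sg at e this
  split_ifs at e this <;> simp only [ne_eq, not_true_eq_false, one_smul, neg_one_zsmul] at e this
  exacts [eq_zero_of_neg F this.symm, eq_zero_of_neg F this]

omit [NeZero (2 : F)] in
theorem conj_pr {K L : Subgroup G} {c : G} (hc : ∀ h, h ∈ K ↔ c * h * c⁻¹ ∈ L) (t : G) (x : V) :
    ρ c (pr ρ K t x) = pr ρ L (c * t * c⁻¹) (ρ c x) := by
  have e : (fs K).card = (fs L).card :=
    Finset.card_equiv (MulAut.conj c).toEquiv fun h => by simpa using hc h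
  rw [pr_apply, pr_apply, map_smul, map_sum, ← card_fs, ← card_fs, e]
  congr 1
  refine Finset.sum_equiv (MulAut.conj c).toEquiv (fun h => by simpa using hc h) fun h _ => ?_
  rw [map_zsmul, app_app, app_app]
  simp [sg_conj]

theorem sum_sg {Q : Subgroup G} {z q : G} (h : XS Q z) (hq : q ∈ Q) (h1 : q ≠ 1) (hz : q ≠ z) :
    ∑ t ∈ fs Q, sg q t = 0 := by
  obtain ⟨y, hy, e⟩ := h.exists_not_comm hq h1 hz
  have := sum_mul_left hy fun t => sg t q
  rw [Finset.sum_congr rfl fun t ht => sg_mul h hy (mem_fs.1 ht) hq, ← Finset.mul_sum,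
    sg_neg (Ne.symm e)] at this
  simp only [sg_comm q]
  omega

theorem sum_pr {Q : Subgroup G} {z : G} (h : XS Q z) (x : V) :
    ∑ t ∈ fs Q, pr ρ Q t x = x + ρ z x := by
  classical
  simp only [pr_apply]
  rw [← Finset.smul_sum, Finset.sum_comm]
  simp only [← Finset.sum_smul]
  rw [Finset.sum_eq_add 1 z h.z_ne.symm (fun q hq hn => by
    rw [sum_sg h (mem_fs.1 hq) hn.1 hn.2, zero_smul]) (by simp) (by simp [h.z_mem]),
    Finset.sum_congr rfl fun t _ => sg_pos (x := 1) (by simp),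
    Finset.sum_congr rfl fun t ht => sg_pos (h.z_comm t (mem_fs.1 ht)).symm, Finset.sum_const,
    card_fs, nsmul_one, ← smul_add, natCast_zsmul, ← Nat.cast_smul_eq_nsmul F, smul_smul,
    inv_mul_cancel₀ (card_ne h.isPGroup), one_smul, map_one, End.one_apply]

/-- Decomposition into weight vectors. -/
theorem mem_of_pr {Q : Subgroup G} {z : G} (h : XS Q z) {M : Submodule F V} {x : V}
    (hz : ρ z x = x) (hM : ∀ t ∈ Q, pr ρ Q t x ≠ 0 → pr ρ Q t x ∈ M) : x ∈ M := by
  have := sum_pr (ρ := ρ) h x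
  rw [hz] at this
  refine mem_of_two_smul (this ▸ sum_mem fun t ht => ?_)
  by_cases e : pr ρ Q t x = 0
  exacts [e ▸ M.zero_mem, hM t (mem_fs.1 ht) e]

/-- A common eigenvector of a subgroup of `Q`. -/
theorem exists_wt {Q K : Subgroup G} {z : G} (h : XS Q z) (hK : K ≤ Q) {x : V} (h0 : x ≠ 0)
    (hz : ρ z x = x) (hx : ∀ k ∈ K, ∃ c : F, ρ k x = c • x) :
    ∃ t ∈ Q, Eig ρ Q t ≠ ⊥ ∧ x ∈ Eig ρ K t := by
  obtain ⟨t, ht, e⟩ : ∃ t ∈ Q, pr ρ Q t x ≠ 0 := by
    by_contra hc
    push Not at hc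
    exact h0 (mem_of_pr (M := ⊥) h hz fun t ht e => absurd (hc t ht) e)
  have ch := ch_of h le_rfl ht
  refine ⟨t, ht, fun a => e (by simpa [a] using pr_mem (ρ := ρ) ch x), fun k hk => ?_⟩
  obtain ⟨c, hc⟩ := hx k hk
  have := pr_app (ρ := ρ) ch (hK hk) x
  rw [hc, map_smul, ← Int.cast_smul_eq_zsmul F] at this
  rw [hc, smul_left_injective F e this, Int.cast_smul_eq_zsmul]

theorem comm_of_pr_ne {Q K : Subgroup G} {z t r : G} (h : XS Q z) (hK : K ≤ Q) (ht : t ∈ Q)
    (hr : r ∈ Q) {x : V} (hx : x ∈ Eig ρ K t) (e : pr ρ Q (t * r) x ≠ 0) :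
    ∀ k ∈ K, k * r = r * k := fun k hk => by
  by_contra a
  refine e (pr_eq_zero (ch_of h le_rfl (mul_mem ht hr)) hx (hK hk) hk ?_)
  rw [sg_mul' h ht hr (hK hk), sg_neg a]
  have := sg_sq k t
  intro b
  rw [show sg k t = 0 by omega] at this
  omega

/-- Eigenvectors of a subgroup decompose into the possible weights. -/
theorem mem_of_Eig {Q K : Subgroup G} {z t : G} (h : XS Q z) (hK : K ≤ Q) (hz : z ∈ K)
    (ht : t ∈ Q) {x : V} (hx : x ∈ Eig ρ K t) {M : Submodule F V}
    (hM : ∀ r ∈ Q, (∀ k ∈ K, k * r = r * k) → Eig ρ Q (t * r) ≤ M) : x ∈ M :=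
  mem_of_pr h (Eig.fix hx hz (h.z_comm t ht).symm) fun u hu e => by
    have hr := mul_mem (inv_mem ht) hu
    rw [← mul_inv_cancel_left t u] at e ⊢
    exact hM _ hr (comm_of_pr_ne h hK ht hr hx e) (pr_mem (ch_of h le_rfl (mul_mem ht hr)) x)

variable [FiniteDimensional F V]

theorem sum_finrank_le {ι : Type*} (S : Finset ι) (t : ι → G) {K : Subgroup G}
    (hc : ∀ i ∈ S, Ch K (t i)) (W : Submodule F V)
    (hd : ∀ i ∈ S, ∀ j ∈ S, (∀ k ∈ K, sg k (t j) = sg k (t i)) → j = i) :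
    ∑ i ∈ S, finrank F (W ⊓ Eig ρ K (t i) : Submodule F V) ≤ finrank F W := by
  classical
  let f : (∀ i : S, (W ⊓ Eig ρ K (t i) : Submodule F V)) →ₗ[F] W :=
    ∑ i, (Submodule.inclusion inf_le_left).comp (LinearMap.proj i)
  rw [← Finset.sum_coe_sort, ← finrank_pi_fintype]
  refine LinearMap.finrank_le_finrank_of_injective (f := f)
    ((injective_iff_map_eq_zero _).2 fun a ha => funext fun i => Subtype.ext ?_)
  have h1 : ∑ j, (a j : V) = 0 := by simpa [f] using congrArg Subtype.val ha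
  have h2 := congrArg (pr ρ K (t i)) h1
  rw [map_sum, map_zero, Finset.sum_eq_single i (fun j _ e => ?_) (by simp),
    pr_id (hc i i.2) (a i).2.2] at h2
  · exact h2
  have := mt (hd i i.2 j j.2) fun b => e (Subtype.ext b)
  push Not at this
  obtain ⟨k, hk, b⟩ := this
  exact pr_eq_zero (hc i i.2) (a j).2.2 hk hk b.symm

open Classical in
theorem card_le_finrank {ι : Type*} (S : Finset ι) (t : ι → G) {K : Subgroup G}
    (hc : ∀ i ∈ S, Ch K (t i)) (W : Submodule F V) {m r : ℕ}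
    (hm : ∀ i ∈ S, m ≤ finrank F (W ⊓ Eig ρ K (t i) : Submodule F V))
    (hr : ∀ i ∈ S, (S.filter fun j => ∀ k ∈ K, sg k (t j) = sg k (t i)).card ≤ r) :
    m * S.card ≤ r * finrank F W := by
  let χ : ι → K → ℤ := fun i k => sg (k : G) (t i)
  have h1 := Finset.card_le_mul_card_image (f := χ) S r fun a ha => by
    obtain ⟨i, hi, rfl⟩ := Finset.mem_image.1 ha
    refine le_trans (le_of_eq ?_) (hr i hi)
    exact congrArg _ (Finset.filter_congr fun j _ => by simp [χ, funext_iff])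
  choose s hs hs' using fun a : S.image χ => Finset.mem_image.1 a.2
  have h2 := sum_finrank_le (ρ := ρ) Finset.univ (fun a => t (s a)) (fun a _ => hc _ (hs a)) W
    fun a _ b _ e => Subtype.ext (by
      rw [← hs' a, ← hs' b]; exact funext fun k => e k k.2)
  have h3 := Finset.card_nsmul_le_sum Finset.univ _ m fun a _ => hm _ (hs a)
  rw [Finset.card_univ, Fintype.card_coe, smul_eq_mul] at h3
  calc m * S.card ≤ m * (r * (S.image χ).card) := Nat.mul_le_mul_left _ h1
    _ = r * ((S.image χ).card * m) := by ring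
    _ ≤ _ := Nat.mul_le_mul_left _ (h3.trans h2)

end Cfsg.Agent.Mon.Bv
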