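import Cfsg.Agent.Mon.Rep

/-! Invariant trilinear forms without a symmetry assumption; irreducibility; the Norton pair. -/

set_option autoImplicit false

namespace Cfsg.Agent.Mon

open Cfsg Cfsg.Agent.Spor Matrix Subgroup

namespace IV

variable {Ψ : B →ₗ[ℝ] B →ₗ[ℝ] B →ₗ[ℝ] ℝ}

theorem xtt'
    (hi : ∀ (g : MG) x y w, Ψ (g.1 x) (g.1 y) (g.1 w) = Ψ x y w)
    (hX : ∀ u v w, IsSh u → IsSh v → IsSh w → Ψ (Xv u) (Xv v) (Xv w) = 0) {u : Lb} (hu : IsSh u)
    (T U : TS) : Ψ (Xv u) (ofT T) (ofT U) = 0 := by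
  have yy : ∀ d i e j, Ψ (Ov oc 0) (Ry d i) (Ry e j) = 0 := fun d i e j => by
    rw [← hi sG, sG_Ov wt_oc (zero_mem_Ev _), sG_Ry, sG_Ry]
    simp only [map_smul, LinearMap.smul_apply, Rx]
    rw [sO_zero hX wt_oc 0 (isSh_ur _ _) (isSh_ur _ _), smul_zero, smul_zero]
  have zz : ∀ d i e j, Ψ (Ov oc 0) (Rz d i) (Rz e j) = 0 := fun d i e j => by
    have := hi (xq (0, cc (e1 none))) (Ov oc 0) (Ry d i) (Ry e j)
    rw [yy, xq_e_Ry, xq_e_Ry, Ov, xq_Xv] at this
    simp only [map_smul, LinearMap.smul_apply, smul_eq_mul, mul_eq_zero, sg_ne_zero,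
      false_or] at this
    exact this
  have yz : ∀ d i e j, Ψ (Ov oc 0) (Ry d i) (Rz e j) = 0 := fun d i e j => by
    refine weight hi (xq (Om, 0)) (xq_Xv _ _) (b := 1) (by rw [xq_Om_Ry, one_smul])
      (xq_Om_Rz _ _) ?_
    have : bb (Om, 0) (uo oc 0) = 0 := by
      simp [bb, cyc, uo, isTheta.at_om]
    rw [this]; simp
  have zy : ∀ d i e j, Ψ (Ov oc 0) (Rz d i) (Ry e j) = 0 := fun d i e j => by
    refine weight hi (xq (Om, 0)) (xq_Xv _ _) (xq_Om_Rz _ _) (c := 1)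
      (by rw [xq_Om_Ry, one_smul]) ?_
    have : bb (Om, 0) (uo oc 0) = 0 := by
      simp [bb, cyc, uo, isTheta.at_om]
    rw [this]; simp
  have a0 : ∀ T U, Ψ (Ov oc 0) (ofT T) (ofT U) = 0 := fun T U => by
    have hy : ∀ e j, Ψ (Ov oc 0) (ofT T) (Ry e j) = 0 := fun e j =>
      ofT_mem (R := LinearMap.ker ((Ψ (Ov oc 0)).flip (Ry e j))) (fun d i => yy d i e j)
        (fun d i => zy d i e j) T
    have hz : ∀ e j, Ψ (Ov oc 0) (ofT T) (Rz e j) = 0 := fun e j =>
      ofT_mem (R := LinearMap.ker ((Ψ (Ov oc 0)).flip (Rz e j))) (fun d i => yz d i e j)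
        (fun d i => zz d i e j) T
    exact ofT_mem (R := LinearMap.ker (Ψ (Ov oc 0) (ofT T))) hy hz U
  obtain ⟨p, e, h⟩ := exists_act_Xv hu (isSh_uo wt_oc (zero_mem_Ev _))
  rw [← hi (act p), h, act_ofT, act_ofT, map_smul, LinearMap.smul_apply, LinearMap.smul_apply]
  exact (congrArg _ (a0 _ _)).trans (smul_zero _)

theorem axx'
    (hi : ∀ (g : MG) x y w, Ψ (g.1 x) (g.1 y) (g.1 w) = Ψ x y w) (h1 : ∀ x y, Ψ one x y = 0)
    (hX : ∀ u v w, IsSh u → IsSh v → IsSh w → Ψ (Xv u) (Xv v) (Xv w) = 0)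
    (A : Matrix Pt Pt ℝ) : Ψ (ofA A) (Xv (ur 0 none)) (Xv (ur 0 none)) = 0 := by
  obtain ⟨n, hn⟩ : ∃ n : La → Matrix Pt Pt ℝ →ₗ[ℝ] ℝ,
      ∀ r A, n r A = Ψ (ofA A) (Xv (φ r)) (Xv (φ r)) :=
    ⟨fun r => ((Ψ.flip (Xv (φ r))).flip (Xv (φ r))).comp ofAL, fun _ _ => rfl⟩
  have eqv : ∀ (g : Co0) r A, n (g • r) (mat g * A * (mat g)ᵀ) = n r A := fun g r A => by
    obtain ⟨p, rfl⟩ := Ct_surj g
    rw [hn, hn, ← hi (act p) (ofA A), act_ofA, act_Xv']
    simp only [map_smul, LinearMap.smul_apply, smul_smul, sg_mul_self, one_smul]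
  obtain ⟨r, hr, hr1, hr'⟩ := exists_rep_ur 0 none
  obtain ⟨s, hs0, hs1, hs2⟩ := exists_rep_uo wt_oc (zero_mem_Ev oc)
  have o1 : ∀ i j, i ≠ j → n r (single i j 1) = 0 := fun i j h => by
    rw [hn, ofA_single, hr1, ← Rx, ← hi sG, map_smul, sG_Px h, sG_Rx, Ry_eq, Py]
    simp only [map_smul, map_add, LinearMap.smul_apply, LinearMap.add_apply,
      xtt' hi hX (isSh_um h), xtt' hi hX (isSh_up h), smul_zero, add_zero]
  have o2 : ∀ i j, i ≠ j → n s (single i j 1) = 0 := fun i j h => by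
    have k : ∀ u, IsSh u → Ψ (Xv u) (sO oc 0) (sO oc 0) = 0 := fun u hu => by
      nth_rewrite 2 [sO]
      rw [map_sum]
      refine Finset.sum_eq_zero fun E hE => ?_
      rw [map_smul, Ov, ← LinearMap.flip_apply Ψ (Xv u) (sO oc 0),
        sO_zero (Ψ := Ψ.flip) (fun u v w a b c => hX v u w b a c) wt_oc 0 hu (isSh_uo wt_oc hE),
        smul_zero]
    rw [hn, ofA_single, hs1, ← Ov, ← hi sG, map_smul, sG_Px h, sG_Ov wt_oc (zero_mem_Ev _), Py]
    simp only [map_smul, map_add, LinearMap.smul_apply, LinearMap.add_apply,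
      k _ (isSh_um h), k _ (isSh_up h), smul_zero, add_zero]
  have dg : ∀ j, j ≠ none → n r (single j j 1) = n r (single (some 0) (some 0) 1) := fun j h => by
    obtain ⟨σ, b1, b2⟩ := Leech.M24_two_trans (p := none) (q := some 0) (by decide) h.symm
    have e : Leech.permHom σ • r = r := Subtype.ext (funext fun k => by
      obtain ⟨k, rfl⟩ := (σ : Equiv.Perm Pt).surjective k
      rw [Leech.permHom_smul', hr', hr']
      have : (σ : Equiv.Perm Pt) k = none ↔ k = none := by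
        conv_lhs => rw [← b1]
        exact (σ : Equiv.Perm Pt).injective.eq_iff
      simp only [this]; rfl)
    rw [← eqv (Leech.permHom σ) r (single (some 0) (some 0) 1), perm_single, e, b2]
  have fm : ∀ A, n r A = n r (single (some 0) (some 0) 1) * trace A +
      (n r (single none none 1) - n r (single (some 0) (some 0) 1)) * A none none := fun A => by
    rw [diag_expand o1, trace, Finset.mul_sum, ← Finset.add_sum_erase _ _ (Finset.mem_univ none),
      ← Finset.add_sum_erase _ _ (Finset.mem_univ none),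
      Finset.sum_congr rfl fun j hj => by rw [dg j (Finset.ne_of_mem_erase hj)]]
    simp only [smul_eq_mul, diag_apply, mul_comm (A _ _)]
    ring
  have ab : n r (single none none 1) - n r (single (some 0) (some 0) 1) = 0 := by
    by_contra hne
    obtain ⟨g, hg⟩ := Leech.trans_32 hr hs0
    have b1 : ∀ j k, j ≠ k → ((g • Leech.e8 none : La) : Pt → ℤ) j *
        ((g • Leech.e8 none : La) : Pt → ℤ) k = 0 := fun j k h => by
      have := eqv g r ((mat g)ᵀ * single j k 1 * mat g)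
      rw [hg, ← Matrix.mul_assoc, ← Matrix.mul_assoc, mat_orth, Matrix.one_mul, Matrix.mul_assoc,
        mat_orth, Matrix.mul_one, o2 j k h, fm, conj_diag, trace_mul_cycle, mat_orth,
        Matrix.one_mul, trace_single_eq_of_ne _ _ _ h, mul_zero, zero_add] at this
      have c := (mul_eq_zero.1 this.symm).resolve_left hne
      simp only [mat, rv] at c
      have : ((((g • Leech.e8 none : La) : Pt → ℤ) j *
        ((g • Leech.e8 none : La) : Pt → ℤ) k : ℤ) : ℝ) = 0 := by push_cast; linarith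
      exact_mod_cast this
    have b2 := Leech.sqNorm_smul g (Leech.e8 none)
    have b3 := Leech.dotInt_smul g (Leech.e8 none) r
    rw [Leech.sqNorm_e8] at b2
    rw [hg, Leech.coe_e8, Leech.dotInt_single_left, hr'] at b3
    generalize ((g • Leech.e8 none : La) : Pt → ℤ) = v at b1 b2 b3
    obtain ⟨k, hk⟩ : ∃ k, v k ≠ 0 := by
      by_contra h
      push Not at h
      simp [sqNorm, h] at b2
    have b4 : ∀ j, j ≠ k → v j = 0 := fun j h => (mul_eq_zero.1 (b1 j k h)).resolve_right hk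
    rw [sqNorm, Finset.sum_eq_single k (fun j _ h => by rw [b4 j h]; rfl) (by simp)] at b2
    rw [dotInt, Finset.sum_eq_single k (fun j _ h => by rw [b4 j h, zero_mul]) (by simp),
      hs2] at b3
    simp only [Submodule.coe_zero, Pi.zero_apply, if_true] at b3
    split_ifs at b3
    · omega
    · have : v k = -12 := by omega
      rw [this] at b2; norm_num at b2
  have b0 : n r (single (some 0) (some 0) 1) = 0 := by
    have := fm 1
    rw [ab, hn, ofA_one, map_smul, LinearMap.smul_apply, LinearMap.smul_apply, h1, trace_one,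
      card_golayPt] at this
    simp only [smul_zero, zero_mul, add_zero] at this
    exact (mul_eq_zero.1 this.symm).resolve_right (by norm_num)
  rw [← hr1, ← hn, fm, ab, b0, zero_mul, zero_mul, add_zero]

/-- exchange of the last two arguments -/
noncomputable def sw (Ψ : B →ₗ[ℝ] B →ₗ[ℝ] B →ₗ[ℝ] ℝ) : B →ₗ[ℝ] B →ₗ[ℝ] B →ₗ[ℝ] ℝ :=
  Ψ.compr₂ LinearMap.id |>.flip.flip |> fun Φ => (LinearMap.lflip.toLinearMap).comp Φ

theorem sw_apply (x y w : B) : sw Ψ x y w = Ψ x w y := rfl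

theorem zero3' (hi : ∀ (g : MG) x y w, Ψ (g.1 x) (g.1 y) (g.1 w) = Ψ x y w)
    (h1 : ∀ x y, Ψ one x y = 0) (h2 : ∀ x y, Ψ x one y = 0) (h3 : ∀ x y, Ψ x y one = 0)
    (hX : ∀ u v w, IsSh u → IsSh v → IsSh w → Ψ (Xv u) (Xv v) (Xv w) = 0) : Ψ = 0 := by
  have hu := isSh_ur 0 none
  have fA : ∀ (t : Lb) A, (xq t).1 (ofA A) = (1 : ℝ) • ofA A := fun t A => by rw [xq_ofA, one_smul]
  have zA : ∀ A, zG.1 (ofA A) = (1 : ℝ) • ofA A := fun A => by rw [z_ofA, one_smul]
  have zX : ∀ u, zG.1 (Xv u) = (1 : ℝ) • Xv u := fun A => by rw [z_Xv, one_smul]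
  have aa : ∀ A A', Ψ (Xv (ur 0 none)) (ofA A) (ofA A') = 0 := fun A A' => by
    obtain ⟨t, ht⟩ := exists_bb (ne_zero_of_isSh hu)
    exact weight hi (xq t) (xq_Xv _ _) (fA _ _) (fA _ _) (by rw [ht]; simp)
  have ax : ∀ A v, Ψ (Xv (ur 0 none)) (ofA A) (Xv v) = 0 := fun A v => by
    by_cases h : ur 0 none = v
    · rw [← h]
      exact axx' (Ψ := Ψ.flip) (fun g x y w => hi g y x w) h2 (fun u v w a b c => hX v u w b a c) A
    obtain ⟨t, ht⟩ := exists_bb (u := ur 0 none + v) fun e => h (CA.lb_eq_of_add e)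
    exact weight hi (xq t) (xq_Xv _ _) (fA _ _) (xq_Xv _ _)
      (by rw [mul_one, ← sg_add, ← bb_add_right, ht, sg_one])
  have xa : ∀ A v, Ψ (Xv (ur 0 none)) (Xv v) (ofA A) = 0 := fun A v => by
    by_cases h : ur 0 none = v
    · rw [← h]
      exact axx' (Ψ := (sw Ψ).flip) (fun g x y w => hi g y w x) h3
        (fun u v w a b c => hX v w u b c a) A
    obtain ⟨t, ht⟩ := exists_bb (u := ur 0 none + v) fun e => h (CA.lb_eq_of_add e)
    exact weight hi (xq t) (xq_Xv _ _) (xq_Xv _ _) (fA _ _)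
      (by rw [mul_one, ← sg_add, ← bb_add_right, ht, sg_one])
  refine LinearMap.ker_eq_top.1 (irr (fun g x hx => ?_)
    (LinearMap.ext fun x => LinearMap.ext (h1 x)) hu ?_)
  · refine LinearMap.ext fun y => LinearMap.ext fun w => ?_
    rw [← app_inv g y, ← app_inv g w, hi, LinearMap.mem_ker.1 hx]; rfl
  · exact lin_zero (fun A => lin_zero (aa A) (fun v _ => ax A v)
        fun T => weight hi zG (zX _) (zA _) (z_ofT _) (by simp))
      (fun v hv => lin_zero (fun A => xa A v) (fun w hw => hX _ _ _ hu hv hw)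
        fun T => weight hi zG (zX _) (zX _) (z_ofT _) (by simp))
      fun T => lin_zero (fun A => weight hi zG (zX _) (z_ofT _) (zA _) (by simp))
        (fun v _ => weight hi zG (zX _) (z_ofT _) (zX _) (by simp)) (xtt' hi hX hu T)

end IV

/-- every invariant trilinear form killing the identity is a multiple of the cubic form -/
theorem inv3_gen (Ψ : B →ₗ[ℝ] B →ₗ[ℝ] B →ₗ[ℝ] ℝ)
    (hi : ∀ (g : MG) x y w, Ψ (g.1 x) (g.1 y) (g.1 w) = Ψ x y w) (h1 : ∀ x y, Ψ one x y = 0)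
    (h2 : ∀ x y, Ψ x one y = 0) (h3 : ∀ x y, Ψ x y one = 0) :
    ∃ α : ℝ, ∀ x y w, Ψ x y w = α * tt (pr0 x) (pr0 y) (pr0 w) := by
  obtain ⟨F, hF⟩ : ∃ F : B →ₗ[ℝ] B →ₗ[ℝ] B →ₗ[ℝ] ℝ, ∀ x y w,
      F x y w = tt (pr0 x) (pr0 y) (pr0 w) :=
    ⟨(ttL.compl₁₂ pr0L pr0L).compr₂ (LinearMap.lcomp ℝ ℝ pr0L), fun x y w => by
      simp only [LinearMap.compr₂_apply, LinearMap.compl₁₂_apply, LinearMap.lcomp_apply,
        pr0L_apply, ttL_apply]⟩
  obtain ⟨α, hα⟩ := IV.exists_alpha hi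
  refine ⟨α, fun x y w => ?_⟩
  have := IV.zero3' (Ψ := Ψ + (-α) • F) (fun g x y w => ?_)
    (fun x y => ?_) (fun x y => ?_) (fun x y => ?_) fun u v w hu hv hw => ?_
  · have := LinearMap.congr_fun (LinearMap.congr_fun₂ this x y) w
    simp only [LinearMap.add_apply, LinearMap.smul_apply, hF, smul_eq_mul,
      LinearMap.zero_apply] at this
    linarith
  · simp only [LinearMap.add_apply, LinearMap.smul_apply, hF, hi, pr0_map]
    rw [g.2.2]
  · simp only [LinearMap.add_apply, LinearMap.smul_apply, hF, h1, pr0_one]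
    rw [← ttL_apply]; simp
  · simp only [LinearMap.add_apply, LinearMap.smul_apply, hF, h2, pr0_one]
    rw [← ttL_apply]; simp
  · simp only [LinearMap.add_apply, LinearMap.smul_apply, hF, h3, pr0_one]
    rw [← ttL_apply]; simp
  · simp only [LinearMap.add_apply, LinearMap.smul_apply, hF, pr0_Xv, hα u v w hu hv hw,
      smul_eq_mul]
    ring

end Cfsg.Agent.Mon
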