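import Cfsg.Agent.Mon.CuInv

/-! Irreducibility of the 196883-dimensional module and uniqueness of the product. -/

set_option autoImplicit false

namespace Cfsg.Agent.Mon

open Cfsg Cfsg.Agent.Spor Matrix

theorem pr0_of_mem {x : B} (h : x ∈ V0) : pr0 x = x := by
  rw [mem_V0, ip_comm] at h
  rw [pr0, h, zero_div, zero_smul, sub_zero]

/-- an invariant subspace of the complement of the identity is trivial -/
theorem irr_V0 {U : Submodule ℝ B} (hU : U ≤ V0) (hi : ∀ g : MG, ∀ x ∈ U, g.1 x ∈ U) :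
    U = ⊥ ∨ U = V0 := by
  have hr : LinearMap.IsRefl ipL := fun x y h => by rw [ipL_apply] at *; rw [ip_comm, h]
  have hc : IsCompl U (LinearMap.BilinForm.orthogonal ipL U) :=
    LinearMap.BilinForm.isCompl_orthogonal_of_restrict_nondegenerate hr
      (LinearMap.BilinForm.nondegenerate_restrict_of_disjoint_orthogonal ipL hr
        (Submodule.disjoint_def.2 fun x hx h => by
          by_contra h0
          have := ip_pos h0
          rw [← ipL_apply] at this
          exact this.ne' (h x hx)))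
  set P : B →ₗ[ℝ] B := U.subtype ∘ₗ U.projectionOnto _ hc with hP
  have h1 : ∀ x ∈ U, P x = x := fun x hx => by
    simp only [hP, LinearMap.comp_apply]
    rw [Submodule.projectionOnto_apply_left hc ⟨x, hx⟩]; rfl
  have h2 : ∀ x ∈ LinearMap.BilinForm.orthogonal ipL U, P x = 0 := fun x hx => by
    simp only [hP, LinearMap.comp_apply]
    rw [Submodule.projectionOnto_apply_right hc ⟨x, hx⟩]; rfl
  have h3 : ∀ (g : MG) x, P (g.1 x) = g.1 (P x) := fun g x => by
    obtain ⟨u, hu, v, hv, rfl⟩ := Submodule.mem_sup.1 (hc.sup_eq_top ▸ Submodule.mem_top (x := x))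
    rw [map_add, map_add, map_add, h1 u hu, h2 v hv, h1 _ (hi g u hu), h2 (g.1 v), map_add,
      map_zero]
    intro n hn
    have := hv _ (hi g⁻¹ n hn)
    rw [ipL_apply] at this ⊢
    rw [← this, ← g.2.1 ((g⁻¹ : MG).1 n), IV.app_inv]
  obtain ⟨α, hα⟩ := inv2 (ipL.compl₁₂ P P) (fun x y => by simp [ipL_apply, ip_comm (P x)])
    (fun g x y => by simp only [LinearMap.compl₁₂_apply, h3, ipL_apply, g.2.1]) fun x => by
      rw [LinearMap.compl₁₂_apply, h2 one, map_zero, LinearMap.zero_apply]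
      intro n hn
      rw [ipL_apply, ip_comm]
      exact mem_V0.1 (hU hn)
  refine or_iff_not_imp_left.2 fun h0 => le_antisymm hU fun x hx => ?_
  obtain ⟨w, hw, w0⟩ := Submodule.exists_mem_ne_zero_of_ne_bot h0
  have a := hα w w
  rw [LinearMap.compl₁₂_apply, h1 w hw, ipL_apply, ip_comm w one, mem_V0.1 (hU hw)] at a
  have a1 : α = 1 := by
    have := ip_pos w0
    refine mul_right_cancel₀ this.ne' ?_
    linarith
  obtain ⟨u, hu, v, hv, rfl⟩ := Submodule.mem_sup.1 (hc.sup_eq_top ▸ Submodule.mem_top (x := x))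
  have v0 : v ∈ V0 := (V0.add_mem_iff_right (hU hu)).1 hx
  have b := hα v v
  rw [LinearMap.compl₁₂_apply, h2 v hv, map_zero, ip_comm v one, mem_V0.1 v0, a1] at b
  have : v = 0 := by
    by_contra h
    have := ip_pos h
    linarith
  rw [this, add_zero]; exact hu

/-- the projection onto `V0` -/
noncomputable def pV : B →ₗ[ℝ] V0 := pr0L.codRestrict V0 fun x => by
  rw [pr0L_apply]; exact pr0_mem x

theorem coe_pV (x : B) : (pV x : B) = pr0 x := pr0L_apply x

theorem pV_coe (x : V0) : pV x = x := Subtype.ext (by rw [coe_pV, pr0_of_mem x.2])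

theorem pV_map (g : MG) (x : B) : pV (g.1 x) = rho0 g (pV x) :=
  Subtype.ext (by rw [coe_rho0, coe_pV, coe_pV, pr0_map])

theorem pV_one : pV one = 0 := Subtype.ext (by rw [coe_pV, pr0_one]; rfl)

theorem ip_pr0 (x : B) {y : B} (h : y ∈ V0) : ip (pr0 x) y = ip x y := by
  rw [pr0, ← ipL_apply, map_sub, map_smul, LinearMap.sub_apply, LinearMap.smul_apply, ipL_apply,
    ipL_apply, mem_V0.1 h, smul_zero, sub_zero]

/-- the Norton product -/
noncomputable def m0 : V0 →ₗ[ℝ] V0 →ₗ[ℝ] V0 := (mul.compl₁₂ V0.subtype V0.subtype).compr₂ pV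

theorem m0_apply (x y : V0) : m0 x y = pV (mul x y) := rfl

theorem V0_ext {x y : V0} (h : ∀ w : V0, ip x w = ip y w) : x = y := by
  by_contra hne
  have := ip_pos (x := ((x - y : V0) : B)) fun e => hne (sub_eq_zero.1 (Subtype.ext e))
  rw [← ipL_apply] at this
  nth_rewrite 1 [Submodule.coe_sub] at this
  rw [map_sub, LinearMap.sub_apply, ipL_apply, ipL_apply, h, sub_self] at this
  exact lt_irrefl _ this

theorem m0_unique (m : V0 →ₗ[ℝ] V0 →ₗ[ℝ] V0)
    (h : ∀ (g : MG) u v, m (rho0 g u) (rho0 g v) = rho0 g (m u v)) : ∃ c : ℝ, m = c • m0 := by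
  obtain ⟨α, hα⟩ := inv3_gen (((m.compl₁₂ pV pV).compr₂ V0.subtype).compr₂ ipL)
    (fun g x y w => by
      simp only [LinearMap.compr₂_apply, LinearMap.compl₁₂_apply, pV_map, h, ipL_apply,
        Submodule.subtype_apply, coe_rho0, g.2.1])
    (fun x y => by simp [pV_one]) (fun x y => by simp [pV_one]) fun x y => by
      simp only [LinearMap.compr₂_apply, LinearMap.compl₁₂_apply, ipL_apply,
        Submodule.subtype_apply]
      rw [ip_comm]; exact mem_V0.1 (Subtype.prop _)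
  refine ⟨α, LinearMap.ext fun x => LinearMap.ext fun y => V0_ext fun w => ?_⟩
  have := hα x y w
  simp only [LinearMap.compr₂_apply, LinearMap.compl₁₂_apply, ipL_apply,
    Submodule.subtype_apply, pV_coe, pr0_of_mem (Subtype.prop _)] at this
  rw [this, LinearMap.smul_apply, LinearMap.smul_apply, Submodule.coe_smul, ← ipL_apply, map_smul,
    LinearMap.smul_apply, ipL_apply, m0_apply, coe_pV, ip_pr0 _ w.2, ip_mul, smul_eq_mul]

theorem Xv_mem (u : Lb) : Xv u ∈ V0 := by rw [mem_V0, ip_comm, IV.ip_Xv_one]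

theorem m0_ne : m0 ≠ 0 := fun h => by
  have hU : sqNorm (Spor.leechU : Pt → ℤ) = 32 := by decide
  have s1 : IsSh (φ Spor.leechU) := ⟨_, hU, rfl⟩
  have s2 : IsSh (φ (-Leech.x16)) := ⟨_, by decide, rfl⟩
  have s3 : IsSh (φ (Spor.leechU + -Leech.x16)) := ⟨_, by decide, rfl⟩
  have := tt_XXX s1 s2 s3
  rw [if_pos (by rw [map_add]; exact CA.lb_add_self _), ← ip_mul, ← ip_pr0 _ (Xv_mem _),
    ← coe_pV] at this
  have e := m0_apply ⟨_, Xv_mem (φ Spor.leechU)⟩ ⟨_, Xv_mem (φ (-Leech.x16))⟩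
  rw [← e, h, ← ipL_apply] at this
  simp only [LinearMap.zero_apply, Submodule.coe_zero, map_zero] at this
  exact sg_ne_zero _ this.symm

theorem norton {M : Type} [Group M] (e : M ≃* MG) :
    ∃ ρ : Representation ℝ M (Fin 196883 → ℝ), Function.Injective ρ ∧
      (∀ W : Submodule ℝ (Fin 196883 → ℝ), (∀ g : M, W.map (ρ g) ≤ W) → W = ⊥ ∨ W = ⊤) ∧
      (∃ B : LinearMap.BilinForm ℝ (Fin 196883 → ℝ), B ≠ 0 ∧ (∀ u v, B u v = B v u) ∧
        ∀ (g : M) (u v : (Fin 196883 → ℝ)), B (ρ g u) (ρ g v) = B u v) ∧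
      ∃ m : (Fin 196883 → ℝ) →ₗ[ℝ] (Fin 196883 → ℝ) →ₗ[ℝ] (Fin 196883 → ℝ), m ≠ 0 ∧
        (∀ u v, m u v = m v u) ∧
        (∀ (g : M) (u v : (Fin 196883 → ℝ)), m (ρ g u) (ρ g v) = ρ g (m u v)) ∧
        ∀ m' : (Fin 196883 → ℝ) →ₗ[ℝ] (Fin 196883 → ℝ) →ₗ[ℝ] (Fin 196883 → ℝ),
          (∀ (g : M) (u v : (Fin 196883 → ℝ)), m' (ρ g u) (ρ g v) = ρ g (m' u v)) →
            ∃ c : ℝ, m' = c • m := by
  refine ⟨rho1.comp e.toMonoidHom, rho1_inj.comp e.injective, fun W hW => ?_,
    ⟨ipL.compl₁₂ (V0.subtype ∘ₗ eV0.symm.toLinearMap) (V0.subtype ∘ₗ eV0.symm.toLinearMap),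
      fun h => ?_, fun u v => ?_, fun g u v => ?_⟩,
    (m0.compl₁₂ eV0.symm.toLinearMap eV0.symm.toLinearMap).compr₂ eV0.toLinearMap,
    fun h => m0_ne ?_, fun u v => ?_, fun g u v => ?_, fun m' hm => ?_⟩
  · rcases irr_V0 (U := W.map (V0.subtype ∘ₗ eV0.symm.toLinearMap))
      (by rintro _ ⟨x, -, rfl⟩; exact Subtype.prop _) (by
        rintro g _ ⟨x, hx, rfl⟩
        refine ⟨rho1 g x, ?_, by simp [rho1_apply, coe_rho0]⟩
        have := hW (e.symm g) ⟨x, hx, rfl⟩
        simpa using this) with h | h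
    · left
      rw [eq_bot_iff] at *
      intro x hx
      have := h ⟨x, hx, rfl⟩
      simpa using this
    · right
      rw [eq_top_iff]
      intro x _
      obtain ⟨y, hy, h'⟩ : ((eV0.symm x : V0) : B) ∈
        W.map (V0.subtype ∘ₗ eV0.symm.toLinearMap) := by rw [h]; exact Subtype.prop _
      rwa [← eV0.symm.injective (Subtype.ext h')]
  · have hu := IV.isSh_ur 0 none
    have := LinearMap.congr_fun₂ h (eV0 ⟨_, Xv_mem (ur 0 none)⟩) (eV0 ⟨_, Xv_mem (ur 0 none)⟩)
    simp [ipL_apply, ip_Xv hu] at this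
  · simp only [LinearMap.compl₁₂_apply, ipL_apply, ip_comm]
  · simp [rho1_apply, coe_rho0, ipL_apply, (e g).2.1]
  · refine LinearMap.ext fun x => LinearMap.ext fun y => ?_
    simpa using LinearMap.congr_fun₂ h (eV0 x) (eV0 y)
  · simp only [LinearMap.compr₂_apply, LinearMap.compl₁₂_apply, m0_apply, mul_comm']
  · simp [rho1_apply, m0_apply, coe_rho0, ← map_mul', pV_map]
  · obtain ⟨c, hc⟩ := m0_unique
      ((m'.compl₁₂ eV0.toLinearMap eV0.toLinearMap).compr₂ eV0.symm.toLinearMap) fun g u v => by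
        have := hm (e.symm g) (eV0 u) (eV0 v)
        simp only [MonoidHom.comp_apply, MulEquiv.coe_toMonoidHom, MulEquiv.apply_symm_apply,
          rho1_apply, LinearEquiv.symm_apply_apply] at this
        simp [this]
    refine ⟨c, LinearMap.ext fun x => LinearMap.ext fun y => ?_⟩
    have := congrArg eV0 (LinearMap.congr_fun₂ hc (eV0.symm x) (eV0.symm y))
    simpa using this

end Cfsg.Agent.Mon
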