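import Cfsg.Agent.Mon.CuRkB
import Cfsg.Agent.Spor.LeechBasic

/-! The Sylow 2-subgroup of `M24` and the meaning of the tables. -/

set_option autoImplicit false

namespace Cfsg.Agent.Mon.RkM

open Cfsg Cfsg.Agent.Comp Cfsg.Agent.Spor Cfsg.Agent.Spor.M24C Cfsg.Agent.Spor.Leech Subgroup
open scoped Pointwise symmDiff

/-- The Sylow 2-subgroup. -/
noncomputable def Syl : Subgroup M24 := closure {g | ∃ i < 4, mc (cd GN i) = g}

/-- The involutions. -/
noncomputable def iv (a : ℕ) : M24 := mc (cd IV a)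

theorem dig_lt (w c i : ℕ) : dig w (2 ^ w - 1) c i < 2 ^ w :=
  lt_of_le_of_lt Nat.and_le_right (Nat.sub_lt (by positivity) one_pos)

theorem gen_spec {g : ℕ} (hg : g < 4) : okM (cd GN g) = true ∧ mulC (cd GN g) (cd GN g) = oneC ∧
    imgC (cd GN g) 5279 = 5279 ∧ fixF 3 (cd GN g) tr0 = true := by
  simpa only [force_eq, and'_eq_true, beq_iff] using (allLT_iff _ _).1 chk0 g hg

theorem nx_spec {p : ℕ} (hp : p < 4096) : mulC (cd GN (p % 4)) (cd TB (p / 4)) = cd TB (nx p) := by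
  have := (allB_iff _ _).1 chk1 (p / 4) (by omega)
  simp only [force_eq, allLT_iff, beq_iff] at this
  rw [this (p % 4) (by omega)]
  exact congrArg _ (congrArg _ (Nat.div_add_mod p 4))

theorem code_M24 {g h : M24} (e : code (g : Equiv.Perm GolayPt) = code (h : Equiv.Perm GolayPt)) :
    g = h := Subtype.ext (code_injective e)

theorem exists_tab {g : M24} (hg : g ∈ Syl) : ∃ i < 1024, code (g : Equiv.Perm GolayPt) = cd TB i := by
  have step : ∀ x ∈ {g | ∃ i < 4, mc (cd GN i) = g}, ∀ y : M24,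
      (∃ i < 1024, code (y : Equiv.Perm GolayPt) = cd TB i) →
      ∃ i < 1024, code ((x * y : M24) : Equiv.Perm GolayPt) = cd TB i := by
    rintro _ ⟨k, hk, rfl⟩ y ⟨i, hi, e⟩
    refine ⟨nx (4 * i + k), dig_lt 10 _ _, ?_⟩
    rw [coe_mul, code_mul, code_mc (gen_spec hk).1, e, ← nx_spec (by omega),
      show (4 * i + k) % 4 = k by omega, show (4 * i + k) / 4 = i by omega]
  induction hg using closure_induction_left with
  | one => exact ⟨0, by norm_num, code_one.trans ((beq_iff _ _).1 ((and'_eq_true _ _).1 chk2).1).symm⟩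
  | mul_left x hx y _ ih => exact step x hx y ih
  | inv_mul_cancel x hx y _ ih =>
    obtain ⟨k, hk, rfl⟩ := id hx
    rw [inv_eq_of_mul_eq_one_right (code_M24 (g := mc (cd GN k) * mc (cd GN k)) (h := 1) (by
      rw [coe_mul, code_mul, code_mc (gen_spec hk).1, (gen_spec hk).2.1]; exact code_one.symm))]
    exact step _ hx y ih

theorem inH_tab : ∀ i < 1024, InH Syl (cd TB i) := fun i => by
  induction i using Nat.strong_induction_on with
  | _ i ih =>
    intro hi
    obtain ⟨h0, h1⟩ := (and'_eq_true _ _).1 chk2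
    have := (allB_iff _ _).1 h1 i hi
    simp only [force_eq, or'_eq_true, and'_eq_true, beq_iff, blt_iff] at this h0
    rcases this with rfl | ⟨h2, h3⟩
    · exact h0 ▸ inH_one _
    · have h2' : dig 12 4095 PA i < 4 * i := h2
      rw [← h3, ← nx_spec (by omega)]
      have h4 : dig 12 4095 PA i % 4 < 4 := by omega
      exact InH.mul (H := Syl) (inH_of_okM (gen_spec h4).1 (Subgroup.subset_closure ⟨_, h4, rfl⟩))
        (ih _ (by omega) (by omega))

theorem card_Syl : Nat.card Syl = 2 ^ 10 := by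
  refine le_antisymm ?_ ?_
  · choose f hf using fun g : Syl => exists_tab g.2
    refine (Nat.card_le_card_of_injective (fun g => (⟨f g, (hf g).1⟩ : Fin 1024))
      fun g h e => Subtype.ext (code_M24 ?_)).trans (by simp)
    rw [(hf g).2, (hf h).2, Fin.mk.inj e]
  · have h1 : StrictMono fun j : Fin 1024 => cd TB (dig 10 1023 OD j) :=
      Fin.strictMono_iff_lt_succ.2 fun j => (blt_iff _ _).1 ((allB_iff _ _).1 chk3 j j.2)
    have h2 : ∀ j : Fin 1024, InH Syl (cd TB (dig 10 1023 OD j)) := fun j => inH_tab _ (dig_lt 10 _ _)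
    refine le_trans (by simp) (Nat.card_le_card_of_injective
      (fun j : Fin 1024 => (⟨_, (h2 j).mc_mem⟩ : Syl)) fun j k e => h1.injective ?_)
    exact (h2 j).code_mc.symm.trans ((congrArg (fun g : Syl => code (g.1 : Equiv.Perm GolayPt)) e).trans
      (h2 k).code_mc)

theorem iv_spec {a : ℕ} (ha : a < 191) : okM (cd IV a) = true ∧ cd IV a ≠ oneC ∧ ∀ b < 191,
    (a = b ∨ cd IV a ≠ cd IV b) ∧ if dig 8 255 (PR a) b < 191 then
      mulC (cd IV a) (cd IV b) = cd IV (dig 8 255 (PR a) b) ∧ (CM a).testBit b = true else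
      a = b ∨ ∃ i < 24, dg (cd IV a) (dg (cd IV b) i) ≠ dg (cd IV b) (dg (cd IV a) i) := by
  have := (allB_iff _ _).1 chk5 a ha
  simp only [force_eq, and'_eq_true, not'_eq_true, beq_iff, allB_iff, or'_eq_true, ite'_eq,
    blt_iff] at this
  refine ⟨this.1, this.2.1, fun b hb => ⟨(this.2.2 b hb).1, ?_⟩⟩
  have h := (this.2.2 b hb).2
  split_ifs at h ⊢
  · simpa only [and'_eq_true, beq_iff, tb_eq] using h
  · simpa only [or'_eq_true, beq_iff, anyLT_iff, not'_eq_true] using h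

theorem code_iv {a : ℕ} (ha : a < 191) : code (iv a : Equiv.Perm GolayPt) = cd IV a :=
  code_mc (iv_spec ha).1

theorem iv_ne {a : ℕ} (ha : a < 191) : iv a ≠ 1 := fun e =>
  (iv_spec ha).2.1 (by rw [← code_iv ha, e]; exact code_one)

theorem tab_iv : Tab iv 191 PR CM := by
  refine ⟨fun a ha b hb e => ((iv_spec ha).2.2 b hb).1.resolve_right (not_not.2 ?_),
    fun a ha b hb h => code_M24 ?_, fun a ha b hb h1 h2 => ?_⟩
  · rw [← code_iv ha, e, code_iv hb]
  · have := ((iv_spec ha).2.2 b hb).2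
    rw [if_pos h] at this
    rw [coe_mul, code_mul, code_iv ha, code_iv hb, code_iv h, this.1]
  · have := ((iv_spec ha).2.2 b hb).2
    split_ifs at this with h
    · exact ⟨h, this.2⟩
    obtain ⟨i, hi, e⟩ := this.resolve_left h1
    refine absurd ?_ e
    have key : ∀ σ τ : Equiv.Perm GolayPt, dg (code σ) (dg (code τ) i) = dg (code (σ * τ)) i :=
      fun σ τ => by rw [dg_code τ hi, dg_code_ix, dg_code _ hi]; rfl
    rw [← code_iv ha, ← code_iv hb, key, key, ← coe_mul, h2, coe_mul]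

theorem exists_iv {t : M24} (ht : t ∈ Syl) (h : t * t = 1) : t = 1 ∨ ∃ a < 191, iv a = t := by
  obtain ⟨i, hi, e⟩ := exists_tab ht
  have := (allB_iff _ _).1 chk4 i hi
  simp only [force_eq, or'_eq_true, not'_eq_true, and'_eq_true, beq_iff, blt_iff, ← e] at this
  rcases this with h1 | h1 | ⟨h1, h2⟩
  · exact absurd (by rw [← code_mul, ← coe_mul, h]; exact code_one) h1
  · exact Or.inl (code_M24 (h1.trans code_one.symm))
  · exact Or.inr ⟨_, h1, code_M24 ((code_iv h1).trans h2)⟩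

theorem isPGroup_of_sq {G : Type*} [Group G] {F : Subgroup G} (hF : ∀ x ∈ F, x * x = 1) :
    IsPGroup 2 F := fun g => ⟨1, Subtype.ext (by simpa [pow_two] using hF g g.2)⟩

theorem card_le_64 {F : Subgroup M24} (hS : F ≤ Syl) (hF : ∀ x ∈ F, x * x = 1) :
    Nat.card F ≤ 2 ^ 6 := by
  classical
  by_contra hc
  obtain ⟨j, hj⟩ := (IsPGroup.iff_card (p := 2)).1 (isPGroup_of_sq hF)
  have h1 : 128 ≤ Nat.card F := by
    rw [hj] at hc ⊢
    exact Nat.pow_le_pow_right (n := 2) (i := 7) (by norm_num)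
      (by by_contra e; exact hc (Nat.pow_le_pow_right (by norm_num) (by omega)))
  let T := (Finset.range 191).filter fun a => iv a ∈ F
  have h2 : Nat.card F ≤ T.card + 1 := by
    rw [← SetLike.coe_sort_coe, Nat.card_coe_set_eq]
    refine le_trans (Set.ncard_le_ncard (t := insert 1 (iv '' T)) fun t ht => ?_)
      ((Set.ncard_insert_le _ _).trans (by
        simpa using (Set.ncard_image_le (f := iv) (s := (T : Set ℕ)))))
    rcases exists_iv (hS ht) (hF t ht) with rfl | ⟨a, ha, rfl⟩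
    · exact Set.mem_insert _ _
    · exact Set.mem_insert_of_mem _ ⟨a, by simpa [T, ha] using ht, rfl⟩
  have h3 := chk8
  rw [cntPow_eq] at h3
  have h4 := Finset.card_le_card (s := T) (t := (Finset.range (2 ^ 8)).filter fun a =>
    and' (Nat.blt a 191) (Nat.ble 126 (force (CM a) (pop 191))) = true) fun a ha => by
      obtain ⟨h5, h6⟩ := Finset.mem_filter.1 ha
      rw [Finset.mem_range] at h5
      rw [Finset.mem_filter, Finset.mem_range, and'_eq_true, blt_iff, ble_iff, force_eq, pop_eq]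
      refine ⟨by omega, h5, le_trans ?_ (Finset.card_le_card (s := T.erase a) fun b hb => ?_)⟩
      · rw [Finset.card_erase_of_mem ha]; omega
      · obtain ⟨h7, h8⟩ := Finset.mem_erase.1 hb
        obtain ⟨h8, h9⟩ := Finset.mem_filter.1 h8
        exact Finset.mem_filter.2 ⟨h8, (tab_iv.cm a h5 b (Finset.mem_range.1 h8) h7.symm
          (comm_of_sq hF h6 h9)).2⟩
  omega

/-- A conjugate of a subgroup. -/
def cj {G : Type*} [Group G] (g : G) (F : Subgroup G) : Subgroup G := F.map (MulAut.conj g).toMonoidHom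

theorem mem_cj {G : Type*} [Group G] {g x : G} {F : Subgroup G} :
    x ∈ cj g F ↔ ∃ y ∈ F, g * y * g⁻¹ = x := Iff.rfl

theorem card_cj {G : Type*} [Group G] (g : G) (F : Subgroup G) : Nat.card (cj g F) = Nat.card F :=
  card_map_of_injective (MulAut.conj g).injective

theorem sq_cj {G : Type*} [Group G] (g : G) {F : Subgroup G} (hF : ∀ x ∈ F, x * x = 1) :
    ∀ x ∈ cj g F, x * x = 1 := by
  rintro _ ⟨y, hy, rfl⟩
  rw [← map_mul, hF y hy, map_one]

/-- A `p`-subgroup is conjugate into any subgroup of index prime to `p`. -/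
theorem exists_cj_le {G : Type*} [Group G] [Finite G] {H S F : Subgroup G} (hS : S ≤ H) (hF : F ≤ H)
    (h2 : IsPGroup 2 F) (hi : ¬ 2 ∣ S.index) : ∃ h ∈ H, cj h F ≤ S := by
  obtain ⟨P, hP⟩ := (h2.comap_of_injective _ H.subtype_injective).exists_le_sylow
  obtain ⟨R⟩ : Nonempty (Sylow 2 (S.subgroupOf H)) := inferInstance
  have h3 : ¬ 2 ∣ ((R : Subgroup (S.subgroupOf H)).map (S.subgroupOf H).subtype).index := by
    rw [index_map_subtype, Nat.prime_two.dvd_mul, not_or]
    exact ⟨R.not_dvd_index, fun e => hi (e.trans (relIndex_dvd_index_of_le hS))⟩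
  obtain ⟨k, hk⟩ := MulAction.exists_smul_eq H P ((R.isPGroup'.map _).toSylow h3)
  refine ⟨k, k.2, ?_⟩
  rintro _ ⟨y, hy, rfl⟩
  have h4 : k * ⟨y, hF hy⟩ * k⁻¹ ∈ ((k • P : Sylow 2 H) : Subgroup H) := ⟨_, hP hy, rfl⟩
  rw [hk] at h4
  exact map_subtype_le (R : Subgroup (S.subgroupOf H)) h4

theorem exists_cj {H F : Subgroup M24} (hS : Syl ≤ H) (hH : F ≤ H) (hF : ∀ x ∈ F, x * x = 1)
    (h1 : F ≠ ⊥) : ∃ h ∈ H, cj h F ≤ Syl ∧ ∃ a < 191, dig 8 255 TP a = a ∧ iv a ∈ cj h F ∧
      ∀ b < 191, iv b ∈ cj h F → b ≤ a := by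
  classical
  let A : ℕ → Prop := fun a => a < 191 ∧ ∃ h ∈ H, cj h F ≤ Syl ∧ iv a ∈ cj h F
  obtain ⟨a0, ha0⟩ : ∃ a, A a := by
    obtain ⟨h, hh, e⟩ := exists_cj_le hS hH (isPGroup_of_sq hF) (by
      have := Syl.index_mul_card
      rw [card_Syl, card_M24] at this
      omega)
    obtain ⟨⟨t, ht⟩, ht'⟩ := ne_bot_iff_exists_ne_one.1 h1
    have h2 : h * t * h⁻¹ ∈ cj h F := ⟨t, ht, rfl⟩
    obtain ⟨a, ha, e'⟩ := (exists_iv (e h2) (sq_cj h hF _ h2)).resolve_left fun e =>
      ht' (Subtype.ext (by simpa using e))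
    exact ⟨a, ha, h, hh, e, e' ▸ h2⟩
  obtain ⟨ha, h, hh, e, e'⟩ : A (Nat.findGreatest A 191) := Nat.findGreatest_spec ha0.1.le ha0
  have hm : ∀ b, A b → b ≤ Nat.findGreatest A 191 := fun b hb => Nat.le_findGreatest hb.1.le hb
  generalize Nat.findGreatest A 191 = a at ha e' hm
  refine ⟨h, hh, e, a, ha, ?_, e', fun b hb h' => hm b ⟨hb, h, hh, e, h'⟩⟩
  have := (allB_iff _ _).1 chk7 a ha
  simp only [force_eq, or'_eq_true, and'_eq_true, beq_iff, blt_iff] at this
  refine this.resolve_right fun ⟨h2, h3, h4⟩ => h2.not_ge (hm _ ⟨h3, ?_⟩)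
  obtain ⟨k, hk, h5⟩ := inH_tab _ (dig_lt 10 KJ a)
  refine ⟨k * h, mul_mem (hS hk) hh, ?_, ?_⟩
  · rintro _ ⟨y, hy, rfl⟩
    simpa [mul_assoc] using mul_mem (mul_mem hk (e ⟨y, hy, rfl⟩)) (inv_mem hk)
  · obtain ⟨y, hy, h6⟩ := mem_cj.1 e'
    refine ⟨y, hy, code_M24 ?_⟩
    rw [code_iv h3, ← h4, ← code_iv ha, ← h6, show (1023 : ℕ) = 2 ^ 10 - 1 from rfl, ← h5, ← code_conj]
    simp [mul_assoc]

/-- The message of a code word. -/
noncomputable def msg (c : Finset GolayPt) : ℕ := maskOf c &&& 4095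

theorem msg_lt (c : Finset GolayPt) : msg c < 4096 := land_4095_lt _

theorem msg_sd (a b : Finset GolayPt) : msg (a ∆ b) = msg a ^^^ msg b := by
  rw [msg, maskOf_symmDiff, Nat.and_xor_distrib_right]; rfl

theorem enc_msg {c : Finset GolayPt} (hc : c ∈ GC) : enc (msg c) = maskOf c :=
  (isCW_iff _).1 ((mem_codeSets_iff c).1 hc)

theorem exists_msg {u : ℕ} (hu : u < 4096) : ∃ c ∈ GC, msg c = u :=
  ⟨_, setOf'_mem_codeSets (isCW_enc hu), by rw [msg, maskOf_setOf' (enc_lt hu), (enc_spec hu).2.1]⟩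

theorem msg_empty : msg ∅ = 0 := by simp [msg, maskOf]

theorem msg_univ : msg Finset.univ = 4095 := by
  rw [msg, ← setOf'_full, maskOf_setOf' (by norm_num)]; rfl

theorem xor_eq (a b : ℕ) : a ^^^ b = Nat.xor a b := rfl

theorem act_spec {a : ℕ} (ha : a < 191) {c : Finset GolayPt} (hc : c ∈ GC) :
    act (RW a) (msg c) = msg (iv a • c) := by
  have := (allB_iff _ _).1 chk6 a ha
  simp only [force_eq, and'_eq_true, allLT_iff, beq_iff, ← code_iv ha] at this
  have h1 : ∀ u, Nat.land (imgC (code (iv a : Equiv.Perm GolayPt)) u) 4095 = msg (iv a • setOf' u) :=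
    fun u => by rw [msg, Subgroup.smul_def, maskOf_smul_setOf']; rfl
  have hu := msg_lt c
  have e1 : Nat.land (msg c) 63 = msg c % 64 := Nat.and_two_pow_sub_one_eq_mod _ 6
  have e2 : Nat.shiftRight (msg c) 6 = msg c / 64 := Nat.shiftRight_eq_div_pow _ 6
  have e3 : Nat.shiftLeft (msg c / 64) 6 = msg c / 64 * 64 := Nat.shiftLeft_eq _ 6
  have e4 : msg c % 64 ^^^ msg c / 64 * 64 = msg c := by
    have : allB 4096 (fun u => Nat.beq (u % 64 ^^^ u / 64 * 64) u) = true := by decide +kernel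
    exact (beq_iff _ _).1 ((allB_iff _ _).1 this _ hu)
  rw [act, e1, e2, (this.2 _ (by omega)).1, (this.2 _ (by omega)).2, h1, h1, e3]
  rw [← xor_eq, ← msg_sd, ← Finset.smul_finset_symmDiff, ← setOf'_xor, ← enc_xor (by omega) (by omega), e4,
    enc_msg hc, setOf'_maskOf]

theorem cT_spec {a : ℕ} (ha : a < 191) (h : iv a • setOf' 8077824 = setOf' 8077824) :
    cT.testBit a = true := by
  have := (allB_iff _ _).1 chk6 a ha
  simp only [force_eq, and'_eq_true, or'_eq_true, not'_eq_true, beq_iff, tb_eq, ← code_iv ha] at this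
  exact this.1.resolve_right (not_not.2 ((smul_setOf'_eq_iff _ (by norm_num)).1 h))

theorem Syl_le_oct : Syl ≤ MulAction.stabilizer M24 (setOf' 5279) := (closure_le _).2 (by
  rintro _ ⟨i, hi, rfl⟩; exact mc_mem_stabilizer_set (gen_spec hi).1 (gen_spec hi).2.2.1)

theorem Syl_le_trio : Syl ≤ MulAction.stabilizer M24 (famOf 3 tr0) := (closure_le _).2 (by
  rintro _ ⟨i, hi, rfl⟩; exact mc_mem_stabilizer_fam (gen_spec hi).1 (gen_spec hi).2.2.2)

end Cfsg.Agent.Mon.RkM
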