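import Cfsg.Agent.Mon.CuRkC
import Cfsg.Agent.Mon.LocL

/-! Elementary abelian subgroups of `M24` acting on the Golay code. -/

set_option autoImplicit false

namespace Cfsg.Agent.Mon.RkM

open Cfsg Cfsg.Agent.Comp Cfsg.Agent.Spor Cfsg.Agent.Spor.M24C Cfsg.Agent.Spor.Leech Subgroup
open scoped Pointwise symmDiff

/-- An elementary abelian group `F` and subcodes `X ≤ Y` with `[𝒢, F] ≤ Y`. -/
structure Cfg (F : Subgroup M24) (X Y : Set (Finset GolayPt)) : Prop where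
  sq : ∀ x ∈ F, x * x = 1
  cX : Cl X
  cY : Cl Y
  le : X ⊆ Y
  gc : Y ⊆ GC
  cm : ∀ σ ∈ F, ∀ c ∈ GC, c ∆ (σ • c) ∈ Y

theorem smul_GC (g : M24) {c : Finset GolayPt} (hc : c ∈ GC) : g • c ∈ GC := smul_mem_GC g.2 hc

theorem Cl.smul {X : Set (Finset GolayPt)} (h : Cl X) (g : M24) : Cl (g • X) :=
  ⟨⟨∅, h.emp, Finset.smul_finset_empty _⟩, by
    rintro _ ⟨a, ha, rfl⟩ _ ⟨b, hb, rfl⟩
    exact ⟨_, h.sd a ha b hb, Finset.smul_finset_symmDiff⟩⟩

theorem conj_smul' (g σ : M24) (c : Finset GolayPt) : (g * σ * g⁻¹) • g • c = g • σ • c := by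
  rw [mul_smul, inv_smul_smul, mul_smul]

theorem Cfg.conj {F : Subgroup M24} {X Y : Set (Finset GolayPt)} (h : Cfg F X Y) (g : M24) :
    Cfg (cj g F) (g • X) (g • Y) := by
  refine ⟨sq_cj g h.sq, h.cX.smul g, h.cY.smul g, Set.smul_set_mono h.le, ?_, fun σ hσ c hc => ?_⟩
  · rintro _ ⟨a, ha, rfl⟩
    exact smul_GC g (h.gc ha)
  · obtain ⟨τ, hτ, rfl⟩ := mem_cj.1 hσ
    obtain ⟨c, rfl⟩ := MulAction.surjective g c
    refine ⟨_, h.cm τ hτ c (by simpa using smul_GC g⁻¹ hc), ?_⟩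
    rw [conj_smul']; exact Finset.smul_finset_symmDiff

theorem bound {H : Subgroup M24} (hS : Syl ≤ H)
    (K : Subgroup M24 → Set (Finset GolayPt) → Set (Finset GolayPt) → Prop)
    (hK : ∀ h ∈ H, ∀ F X Y, K F X Y → K (cj h F) (h • X) (h • Y)) {rk : List ℕ → ℕ} {T d c : ℕ}
    (hrun : run rk T d c = true) (hTd : T + d = 6)
    (hc : ∀ F X Y, K F X Y → ∀ b < 191, iv b ∈ F → c.testBit b = true)
    (hrk : ∀ F X Y, Cfg F X Y → K F X Y → ∀ gs, (∀ R ∈ gs, ∃ a < 191, iv a ∈ F ∧ RW a = R) →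
      2 ^ rk gs * X.ncard ≤ Y.ncard) {F : Subgroup M24} {X Y : Set (Finset GolayPt)} (hH : F ≤ H)
    (h : Cfg F X Y) (hk : K F X Y) : Nat.card F * X.ncard ≤ 2 ^ d * Y.ncard := by
  by_cases h1 : F = ⊥
  · rw [h1, card_bot]
    exact Nat.mul_le_mul Nat.one_le_two_pow (Set.ncard_le_ncard h.le)
  obtain ⟨g, hg, h2, a, ha, h3, h4, h5⟩ := exists_cj hS hH h.sq h1
  have h6 := (allB_iff _ _).1 hrun a ha
  rw [or'_eq_true, not'_eq_true, and'_eq_true, beq_iff, tb_eq] at h6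
  have h7 := hc _ _ _ (hK g hg _ _ _ hk)
  obtain ⟨r, h8, h9⟩ := root_sound tab_iv (fun _ => iv_ne) (h.conj g).sq
    (fun t ht => exists_iv (h2 ht) ((h.conj g).sq t ht))
    (P := fun r => 2 ^ r * (g • X).ncard ≤ (g • Y).ncard) (hrk _ _ _ (h.conj g) (hK g hg _ _ _ hk))
    (hTd ▸ card_le_64 h2 (h.conj g).sq) ha h4 h5 h7 (h6.resolve_left (not_not.2 ⟨h3, h7 a ha h4⟩))
  rw [Set.ncard_smul_set, Set.ncard_smul_set] at h8
  rw [card_cj] at h9
  calc _ ≤ 2 ^ (r + d) * X.ncard := Nat.mul_le_mul_right _ h9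
    _ = 2 ^ d * (2 ^ r * X.ncard) := by ring
    _ ≤ _ := Nat.mul_le_mul_left _ h8

theorem full_bit {b : ℕ} (hb : b < 191) : (2 ^ 191 - 1).testBit b = true := by
  rw [Nat.testBit_two_pow_sub_one]; simpa using hb

/-- Additive functions of messages. -/
def Ad (f : ℕ → ℕ) : Prop := ∀ a ∈ GC, ∀ b ∈ GC, f (msg (a ∆ b)) = f (msg a) ^^^ f (msg b)

theorem Ad.xor {f g : ℕ → ℕ} (hf : Ad f) (hg : Ad g) : Ad fun u => Nat.xor (f u) (g u) :=
  fun a ha b hb => by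
    simp only [← xor_eq, hf a ha b hb, hg a ha b hb]
    ac_rfl

theorem Ad.shift {f : ℕ → ℕ} (hf : Ad f) (k : ℕ) : Ad fun u => Nat.shiftLeft (f u) k :=
  fun a ha b hb => by
    simp only [hf a ha b hb]; exact Nat.shiftLeft_xor_distrib

theorem oc_msg (p O : ℕ) (hO : O < 2 ^ 24) {c : Finset GolayPt} (hc : c ∈ GC) :
    oc p O (msg c) = md p O (maskOf (c ∩ setOf' O)) := by
  rw [oc, force_eq, enc_msg hc, maskOf_inter, maskOf_setOf' hO]; rfl

theorem ad_oc (p O : ℕ) : Ad (oc p O) := fun a ha b hb => by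
  simp only [oc, force_eq, enc_msg ha, enc_msg hb, enc_msg (GC_symmDiff ha hb), maskOf_symmDiff]
  rw [← md_xor]; exact congrArg _ Nat.and_xor_distrib_right

theorem oc_zero {p O : ℕ} (hO : O < 2 ^ 24) (hp : O.testBit p = true) {c : Finset GolayPt}
    (hc : c ∈ GC) (h : c ∩ setOf' O = ∅ ∨ c ∩ setOf' O = setOf' O) : oc p O (msg c) = 0 := by
  rw [oc_msg p O hO hc]
  rcases h with e | e <;> rw [e]
  · exact md_zero _ _
  · rw [maskOf_setOf' hO, md_self hp]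

theorem cm_msg {a : ℕ} (ha : a < 191) {c : Finset GolayPt} (hc : c ∈ GC) :
    Nat.xor (msg c) (act (RW a) (msg c)) = msg (c ∆ (iv a • c)) := by
  rw [act_spec ha hc, msg_sd]; rfl

theorem fold_cons (f : ℕ → ℕ) (R : ℕ) (gs : List ℕ) (u : ℕ) : fold f (R :: gs) u =
    Nat.xor (Nat.shiftLeft (fold f gs u) 12) (f (Nat.xor u (act R u))) := by
  rw [← force_eq _ f]; rfl

theorem ad_fold {f : ℕ → ℕ} (hf : ∀ a b, f (a ^^^ b) = f a ^^^ f b) {F : Subgroup M24} {gs : List ℕ}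
    (h : ∀ R ∈ gs, ∃ a < 191, iv a ∈ F ∧ RW a = R) : Ad (fold f gs) := by
  induction gs with
  | nil => exact fun _ _ _ _ => (Nat.xor_self 0).symm
  | cons R gs ih =>
    obtain ⟨⟨a, ha, -, rfl⟩, h'⟩ := List.forall_mem_cons.1 h
    simp only [funext (fold_cons f _ gs)]
    refine ((ih h').shift 12).xor (g := fun u => f (Nat.xor u (act (RW a) u))) fun b hb c hc => ?_
    simp only [cm_msg ha hb, cm_msg ha hc, cm_msg ha (GC_symmDiff hb hc)]
    rw [← hf, ← msg_sd, Finset.smul_finset_symmDiff, symmDiff_symmDiff_symmDiff_comm]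

theorem fold_zero {f : ℕ → ℕ} {F : Subgroup M24} {gs : List ℕ}
    (h : ∀ R ∈ gs, ∃ a < 191, iv a ∈ F ∧ RW a = R) {c : Finset GolayPt} (hc : c ∈ GC)
    (h0 : ∀ σ ∈ F, f (msg (c ∆ (σ • c))) = 0) : fold f gs (msg c) = 0 := by
  induction gs with
  | nil => rfl
  | cons R gs ih =>
    obtain ⟨⟨a, ha, h1, rfl⟩, h'⟩ := List.forall_mem_cons.1 h
    rw [fold_cons, ih h', cm_msg ha hc, h0 _ h1]; rfl

theorem rk_vecs {F : Subgroup M24} {X Y : Set (Finset GolayPt)} (h : Cfg F X Y) {f : ℕ → ℕ}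
    (hf : Ad f) (h0 : ∀ x ∈ X, f (msg x) = 0) (t : ℕ) {gs : List ℕ}
    (hg : ∀ R ∈ gs, ∃ a < 191, iv a ∈ F ∧ RW a = R) :
    2 ^ rkL (vecs gs) t (fun x => force x f) * X.ncard ≤ Y.ncard := by
  refine rkL_sound h.cX (fun c => f (msg c)) h0 _ t _ Y h.cY h.le
    (fun a ha b hb => hf a (h.gc ha) b (h.gc hb)) ?_
  induction gs with
  | nil => exact fun _ h => absurd h List.not_mem_nil
  | cons R gs ih =>
    obtain ⟨⟨a, ha, h1, rfl⟩, hg'⟩ := List.forall_mem_cons.1 hg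
    have key : ∀ i, ∃ u ∈ Y, f (msg u) = force (cv (RW a) i) f := fun i => by
      obtain ⟨c, hc, e⟩ := exists_msg (dig_lt 12 (RW a) i)
      refine ⟨_, h.cm _ h1 c hc, ?_⟩
      rw [← cm_msg ha hc, force_eq, cv, force_eq, e]; rfl
    change ∀ x ∈ _ :: _ :: _ :: _ :: _ :: _ :: vecs gs, _
    simp only [List.forall_mem_cons]
    exact ⟨key _, key _, key _, key _, key _, key _, ih hg'⟩

/-- `F` centralises `X` modulo the all-one word. -/
def K0 (F : Subgroup M24) (X : Set (Finset GolayPt)) : Prop :=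
  ∀ σ ∈ F, ∀ x ∈ X, x ∆ (σ • x) = ∅ ∨ x ∆ (σ • x) = Finset.univ

theorem K0.conj {F : Subgroup M24} {X : Set (Finset GolayPt)} (h : K0 F X) (g : M24) :
    K0 (cj g F) (g • X) := by
  rintro σ hσ _ ⟨x, hx, rfl⟩
  obtain ⟨τ, hτ, rfl⟩ := mem_cj.1 hσ
  simp only [conj_smul', ← Finset.smul_finset_symmDiff]
  rcases h τ hτ x hx with e | e <;> rw [e]
  exacts [Or.inl (Finset.smul_finset_empty _), Or.inr Finset.smul_finset_univ]

theorem bar_zero {c : Finset GolayPt} (h : c = ∅ ∨ c = Finset.univ) : md 0 4095 (msg c) = 0 := by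
  rcases h with rfl | rfl
  · rw [msg_empty, md_zero]
  · rw [msg_univ, md_self rfl]

theorem mode0 {F : Subgroup M24} {X Y : Set (Finset GolayPt)} (h : Cfg F X Y) (hk : K0 F X) :
    Nat.card F * X.ncard ≤ 4 * Y.ncard :=
  bound le_top (fun F X _ => K0 F X) (fun g _ _ _ _ h => h.conj g) run0 rfl
    (fun _ _ _ _ _ hb _ => full_bit hb) (fun _ _ _ h hk _ hg => rk_vecs h (ad_fold (md_xor _ _) hg)
      (fun x hx => fold_zero hg (h.gc (h.le hx)) fun σ hσ => bar_zero (hk σ hσ x hx)) _ hg)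
    le_top h hk

theorem inter_smul {g : M24} {x O : Finset GolayPt} (h : x ∩ O = ∅ ∨ x ∩ O = O) :
    g • x ∩ g • O = ∅ ∨ g • x ∩ g • O = g • O := by
  rw [← Finset.smul_finset_inter]
  rcases h with e | e <;> rw [e]
  exacts [Or.inl (Finset.smul_finset_empty _), Or.inr rfl]

theorem modeO {F : Subgroup M24} {X Y : Set (Finset GolayPt)} (h : Cfg F X Y) (hk : K0 F X)
    {O : Finset GolayPt} (hO : O ∈ octads) (hF : ∀ σ ∈ F, σ • O = O)
    (hX : ∀ x ∈ X, x ∩ O = ∅ ∨ x ∩ O = O) : Nat.card F * X.ncard ≤ 2 * Y.ncard := by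
  obtain ⟨g, hg⟩ := exists_smul_octad hO (o' := setOf' 5279)
    ⟨setOf'_mem_codeSets (by decide +kernel), by rw [card_setOf']; decide +kernel⟩
  have := bound Syl_le_oct
    (fun F X _ => K0 F X ∧ ∀ x ∈ X, x ∩ setOf' 5279 = ∅ ∨ x ∩ setOf' 5279 = setOf' 5279)
    (fun g hg _ _ _ h => ⟨h.1.conj g, by
      rintro _ ⟨x, hx, rfl⟩
      simpa only [MulAction.mem_stabilizer_iff.1 hg] using inter_smul (g := g) (h.2 x hx)⟩) runO rfl
    (fun _ _ _ _ _ hb _ => full_bit hb) (fun _ _ _ h hk _ hg => rk_vecs h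
      ((ad_fold (md_xor _ _) hg).xor ((ad_oc _ _).shift _)) (fun x hx => by
        simp only [fold_zero hg (h.gc (h.le hx)) fun σ hσ => bar_zero (hk.1 σ hσ x hx),
          oc_zero (p := 0) (by norm_num) rfl (h.gc (h.le hx)) (hk.2 x hx)]; rfl) _ hg)
    (fun σ hσ => by
      obtain ⟨τ, hτ, rfl⟩ := mem_cj.1 hσ
      rw [MulAction.mem_stabilizer_iff, ← hg, conj_smul', hF τ hτ]) (h.conj g)
    ⟨hk.conj g, by rintro _ ⟨x, hx, rfl⟩; exact hg ▸ inter_smul (hX x hx)⟩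
  rwa [Set.ncard_smul_set, Set.ncard_smul_set, card_cj] at this

theorem mem_tr0 : setOf' 5279 ∈ famOf 3 tr0 ∧ setOf' 8077824 ∈ famOf 3 tr0 ∧
    setOf' 8694112 ∈ famOf 3 tr0 :=
  ⟨mem_famOf.2 ⟨0, by norm_num, congrArg _ (by decide +kernel)⟩,
    mem_famOf.2 ⟨1, by norm_num, congrArg _ (by decide +kernel)⟩,
    mem_famOf.2 ⟨2, by norm_num, congrArg _ (by decide +kernel)⟩⟩

/-- `F` fixes the octads of a trio, and `X` refines it. -/
def KT (T : Finset (Finset GolayPt)) (F : Subgroup M24) (X : Set (Finset GolayPt)) : Prop :=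
  ∀ O ∈ T, (∀ σ ∈ F, σ • O = O) ∧ ∀ x ∈ X, x ∩ O = ∅ ∨ x ∩ O = O

theorem KT.conj {T : Finset (Finset GolayPt)} {F : Subgroup M24} {X : Set (Finset GolayPt)}
    (h : KT T F X) (g : M24) : KT (g • T) (cj g F) (g • X) := fun O' hO' => by
  obtain ⟨O, hO, rfl⟩ := Finset.mem_smul_finset.1 hO'
  refine ⟨fun σ hσ => ?_, ?_⟩
  · obtain ⟨τ, hτ, rfl⟩ := mem_cj.1 hσ
    rw [conj_smul', (h O hO).1 τ hτ]
  · rintro _ ⟨x, hx, rfl⟩
    exact inter_smul ((h O hO).2 x hx)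

theorem modeT {F : Subgroup M24} {X Y : Set (Finset GolayPt)} (h : Cfg F X Y)
    {T : Finset (Finset GolayPt)} (hT : T ∈ trios) (hk : KT T F X) :
    Nat.card F * X.ncard ≤ Y.ncard := by
  obtain ⟨g, rfl⟩ := exists_smul_trio tr0_mem hT
  have h1 := hk.conj g⁻¹
  rw [inv_smul_smul] at h1
  have := bound Syl_le_trio (fun F X _ => KT (famOf 3 tr0) F X)
    (fun g hg _ _ _ h => by simpa only [MulAction.mem_stabilizer_iff.1 hg] using h.conj g) runT rfl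
    (fun _ _ _ h _ hb e => cT_spec hb ((h _ mem_tr0.2.1).1 _ e)) (fun _ _ _ h hk _ hg => rk_vecs h
      ((ad_oc _ _).xor ((ad_oc _ _).xor (ad_oc _ _))) (fun x hx => by
        simp only [oc_zero (p := 0) (by norm_num) rfl (h.gc (h.le hx)) ((hk _ mem_tr0.1).2 x hx),
          oc_zero (p := 9) (by norm_num) rfl (h.gc (h.le hx)) ((hk _ mem_tr0.2.1).2 x hx),
          oc_zero (p := 5) (by norm_num) rfl (h.gc (h.le hx)) ((hk _ mem_tr0.2.2).2 x hx)]; rfl) _ hg)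
    (fun σ hσ => by
      rw [MulAction.mem_stabilizer_iff]
      refine Finset.eq_of_subset_of_card_le (fun O' hO' => ?_) (Finset.card_smul_finset _ _).ge
      obtain ⟨O, hO, rfl⟩ := Finset.mem_smul_finset.1 hO'
      rwa [(h1 O hO).1 σ hσ]) (h.conj g⁻¹) h1
  rwa [Set.ncard_smul_set, Set.ncard_smul_set, card_cj, pow_zero, one_mul] at this

theorem modeD {F : Subgroup M24} {X Y : Set (Finset GolayPt)} (h : Cfg F X Y)
    (hk : ∀ x ∈ X, x = ∅ ∨ x = Finset.univ) : Nat.card F * X.ncard ≤ Y.ncard := by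
  simpa using bound le_top (fun _ X _ => ∀ x ∈ X, x = ∅ ∨ x = Finset.univ) (fun g _ _ _ _ h => by
      rintro _ ⟨x, hx, rfl⟩
      rcases h x hx with rfl | rfl
      exacts [Or.inl (Finset.smul_finset_empty _), Or.inr Finset.smul_finset_univ]) runD rfl
    (fun _ _ _ _ _ hb _ => full_bit hb) (fun _ _ _ h hk _ hg => rk_vecs h
      (fun a _ b _ => by rw [msg_sd, md_xor]) (fun x hx => bar_zero (hk x hx)) _ hg) le_top h hk

theorem cl_GC : Cl GC := ⟨GC_empty, fun _ ha _ hb => GC_symmDiff ha hb⟩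

theorem modeK {F : Subgroup M24} {X : Set (Finset GolayPt)} (hF : ∀ x ∈ F, x * x = 1) (hX : Cl X)
    (h1 : X ⊆ GC) (hk : ∀ σ ∈ F, ∀ x ∈ X, σ • x = x) : Nat.card F * X.ncard ≤ 2 * GC.ncard :=
  bound le_top (fun F X Y => GC ⊆ Y ∧ ∀ σ ∈ F, ∀ x ∈ X, σ • x = x) (fun g _ _ _ _ h =>
      ⟨fun c hc => ⟨_, h.1 (smul_GC g⁻¹ hc), smul_inv_smul _ _⟩, by
        rintro σ hσ _ ⟨x, hx, rfl⟩
        obtain ⟨τ, hτ, rfl⟩ := mem_cj.1 hσ
        simp only [conj_smul', h.2 τ hτ x hx]⟩) runK rfl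
    (fun _ _ _ _ _ hb _ => full_bit hb) (fun _ _ Y h hk gs hg => rkL_sound h.cX
      (fun c => fold (fun u => u) gs (msg c)) (fun x hx => fold_zero hg (h.gc (h.le hx)) fun σ hσ => by
        rw [hk.2 σ hσ x hx, symmDiff_self]; exact msg_empty) _ _ _ Y h.cY h.le
      (fun a ha b hb => ad_fold (fun _ _ => rfl) hg a (h.gc ha) b (h.gc hb)) fun x hx => by
        obtain ⟨c, hc, e⟩ := exists_msg (u := x) (by simp at hx; omega)
        exact ⟨c, hk.1 hc, by rw [e]⟩)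
    le_top ⟨hF, hX, cl_GC, h1, le_rfl, fun σ _ c hc => GC_symmDiff hc (smul_GC σ hc)⟩ ⟨le_rfl, hk⟩

theorem ncard_le_pow {X : Set (Finset GolayPt)} (T : Finset (Finset GolayPt))
    (h1 : ∀ p, ∃ O ∈ T, p ∈ O) (h2 : ∀ O ∈ T, ∀ x ∈ X, x ∩ O = ∅ ∨ x ∩ O = O) :
    X.ncard ≤ 2 ^ T.card := by
  rw [← Finset.card_powerset, ← Set.ncard_coe_finset]
  have key : ∀ x ∈ X, ∀ y ∈ X, T.filter (· ⊆ x) = T.filter (· ⊆ y) → x ⊆ y := fun x hx y _ e p hp => by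
    obtain ⟨O, hO, hpO⟩ := h1 p
    have : O ∈ T.filter (· ⊆ x) := Finset.mem_filter.2 ⟨hO, Finset.inter_eq_right.1
      ((h2 O hO x hx).resolve_left (Finset.ne_empty_of_mem (Finset.mem_inter.2 ⟨hp, hpO⟩)))⟩
    rw [e, Finset.mem_filter] at this
    exact this.2 hpO
  exact Set.ncard_le_ncard_of_injOn (fun x => T.filter (· ⊆ x))
    (fun x _ => Finset.mem_coe.2 (Finset.mem_powerset.2 (Finset.filter_subset _ _)))
    fun x hx y hy e => (key x hx y hy e).antisymm (key y hy x hx e.symm)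

theorem sd_univ (c : Finset GolayPt) : c ∆ Finset.univ = cᶜ := by ext; simp [Finset.mem_symmDiff]

theorem card_compl' (c : Finset GolayPt) : cᶜ.card = 24 - c.card := by
  rw [Finset.card_compl, Leech.card_golayPt]

/-- The main estimate on the Golay code. -/
theorem golay_bound {F : Subgroup M24} {D Z Y : Set (Finset GolayPt)} (hF : ∀ x ∈ F, x * x = 1)
    (cD : Cl D) (cZ : Cl Z) (cY : Cl Y) (hD : D ⊆ Y) (hZ : Z ⊆ Y) (gc : Y ⊆ GC)
    (cm : ∀ σ ∈ F, ∀ c ∈ GC, c ∆ (σ • c) ∈ Y) (uD : Finset.univ ∈ D) (uZ : Finset.univ ∈ Z)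
    (fD : ∀ σ ∈ F, ∀ c ∈ D, σ • c = c) (fZ : K0 F Z) (hi : ∀ e ∈ Z, ∀ c ∈ D, e ∩ c ∈ GC) :
    Nat.card F * (D.ncard * Z.ncard) ≤ 8 * Y.ncard := by
  let X : Set (Finset GolayPt) := {x | ∃ a ∈ D, ∃ b ∈ Z, a ∆ b = x}
  have cX : Cl X := ⟨⟨∅, cD.emp, ∅, cZ.emp, symmDiff_self _⟩, by
    rintro _ ⟨a, ha, b, hb, rfl⟩ _ ⟨a', ha', b', hb', rfl⟩
    exact ⟨_, cD.sd a ha a' ha', _, cZ.sd b hb b' hb', symmDiff_symmDiff_symmDiff_comm _ _ _ _⟩⟩
  have hX : X ⊆ Y := by rintro _ ⟨a, ha, b, hb, rfl⟩; exact cY.sd _ (hD ha) _ (hZ hb)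
  have cf : Cfg F X Y := ⟨hF, cX, cY, hX, gc, cm⟩
  have k0 : K0 F X := by
    rintro σ hσ _ ⟨a, ha, b, hb, rfl⟩
    rw [Finset.smul_finset_symmDiff, fD σ hσ a ha, symmDiff_symmDiff_symmDiff_comm, symmDiff_self,
      bot_symmDiff]
    exact fZ σ hσ b hb
  have cI := cD.inter cZ
  have h1 := cD.mul_le cZ (X := X) fun a ha b hb => ⟨a, ha, b, hb, rfl⟩
  have hI : D ∩ Z ⊆ X := fun c hc => ⟨c, hc.1, ∅, cZ.emp, symmDiff_bot _⟩
  have hc : ∀ c ∈ D ∩ Z, cᶜ ∈ D ∩ Z := fun c hc => sd_univ c ▸ cI.sd c hc _ ⟨uD, uZ⟩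
  have hs : ∀ c ∈ D ∩ Z, c.card = 8 ∨ c.card = 12 → ∀ x ∈ X, x ∩ c = ∅ ∨ x ∩ c = c := by
    rintro c hc h _ ⟨a, ha, b, hb, rfl⟩
    refine LL.eq_of_subset (gc (hD hc.1)) h ?_ Finset.inter_subset_right
    rw [show a ∆ b ∩ c = (c ∩ a) ∆ (b ∩ c) by
      ext; simp only [Finset.mem_inter, Finset.mem_symmDiff]; tauto]
    exact GC_symmDiff (hi c hc.2 a ha) (hi b hb c hc.1)
  have fin : ∀ k l, k * l = 8 → (D ∩ Z).ncard ≤ k → Nat.card F * X.ncard ≤ l * Y.ncard →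
      Nat.card F * (D.ncard * Z.ncard) ≤ 8 * Y.ncard := fun k l e h2 h3 =>
    calc _ ≤ Nat.card F * (X.ncard * k) := Nat.mul_le_mul_left _ (h1.trans (Nat.mul_le_mul_left _ h2))
      _ = k * (Nat.card F * X.ncard) := by ring
      _ ≤ k * (l * Y.ncard) := Nat.mul_le_mul_left _ h3
      _ = _ := by rw [← mul_assoc, e]
  have two : ∀ c : Finset GolayPt, ∀ p, ∃ O ∈ ({c, cᶜ} : Finset _), p ∈ O := fun c p => by
    by_cases h : p ∈ c <;> simp [h]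
  by_cases h12 : ∃ d ∈ D ∩ Z, d.card = 12
  · obtain ⟨d, hd, h12⟩ := h12
    have h2 := (ncard_le_pow (X := X) {d, dᶜ} (two d) (by
      simp only [Finset.mem_insert, Finset.mem_singleton, forall_eq_or_imp, forall_eq]
      exact ⟨hs d hd (Or.inr h12), hs _ (hc d hd) (Or.inr (by rw [card_compl', h12]))⟩)).trans
      (Nat.pow_le_pow_right (by norm_num) Finset.card_le_two)
    have h3 := modeD (X := {∅, Finset.univ}) ⟨hF, ⟨Or.inl rfl, by
      rintro _ (rfl | rfl) _ (rfl | rfl) <;> simp⟩, cY, by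
        rintro _ (rfl | rfl); exacts [cY.emp, hD uD], gc, cm⟩ fun _ h => h
    rw [Set.ncard_pair Finset.univ_nonempty.ne_empty.symm] at h3
    refine fin 4 2 rfl ((Set.ncard_le_ncard hI).trans h2) ((Nat.mul_le_mul_left _ h2).trans ?_)
    omega
  by_cases h8 : ∃ O ∈ D ∩ Z, O.card = 8
  swap
  · refine fin 2 4 rfl (ncard_le_pow {Finset.univ} (by simp) ?_) (mode0 cf k0)
    simp only [Finset.mem_singleton, forall_eq, Finset.inter_univ]
    intro c h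
    rcases GC_card (gc (hD h.1)) with e | e | e | e | e
    · exact Or.inl (Finset.card_eq_zero.1 e)
    · exact absurd ⟨c, h, e⟩ h8
    · exact absurd ⟨c, h, e⟩ h12
    · exact absurd ⟨_, hc c h, by rw [card_compl', e]⟩ h8
    · exact Or.inr (Finset.eq_univ_of_card _ (e.trans Leech.card_golayPt.symm))
  obtain ⟨O, hO, h8⟩ := h8
  by_cases h3 : ∀ c ∈ D ∩ Z, c ∩ Oᶜ = ∅ ∨ c ∩ Oᶜ = Oᶜ
  · refine fin 4 2 rfl ((ncard_le_pow {O, Oᶜ} (two O) ?_).trans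
      (Nat.pow_le_pow_right (by norm_num) Finset.card_le_two))
      (modeO cf k0 ⟨gc (hD hO.1), h8⟩ (fun σ hσ => fD σ hσ O hO.1) (hs O hO (Or.inl h8)))
    simp only [Finset.mem_insert, Finset.mem_singleton, forall_eq_or_imp, forall_eq]
    exact ⟨fun x hx => hs O hO (Or.inl h8) x (hI hx), h3⟩
  push Not at h3
  obtain ⟨c, h3, h4, h5⟩ := h3
  have hA : c ∩ Oᶜ ∈ D ∩ Z := by
    rcases hs O hO (Or.inl h8) c (hI h3) with e | e
    · rwa [← Finset.sdiff_eq_inter_compl, Finset.sdiff_eq_self_iff_disjoint.2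
        (Finset.disjoint_iff_inter_eq_empty.2 e)]
    · rw [← Finset.sdiff_eq_inter_compl, ← symmDiff_of_ge (Finset.inter_eq_right.1 e)]
      exact cI.sd _ h3 _ hO
  have hAO : c ∩ Oᶜ ⊆ Oᶜ := Finset.inter_subset_right
  generalize c ∩ Oᶜ = A at h4 h5 hA hAO
  have hB : Oᶜ \ A ∈ D ∩ Z := by
    rw [← symmDiff_of_ge hAO]; exact cI.sd _ (hc O hO) _ hA
  have a1 := Finset.card_lt_card (hAO.ssubset_of_ne h5)
  have a2 := Finset.card_sdiff_of_subset hAO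
  have a3 := GC_card (gc (hD hA.1))
  have a4 := GC_card (gc (hD hB.1))
  have a5 := h4.card_pos
  rw [card_compl', h8] at a1 a2
  have d1 : Disjoint O A := Finset.disjoint_left.2 fun p h h' => Finset.mem_compl.1 (hAO h') h
  have d2 : Disjoint O (Oᶜ \ A) := Finset.disjoint_left.2 fun p h h' =>
    Finset.mem_compl.1 (Finset.mem_sdiff.1 h').1 h
  have d3 : Disjoint A (Oᶜ \ A) := Finset.disjoint_sdiff
  have ne : ∀ {a b : Finset GolayPt}, Disjoint a b → a.card = 8 → a ≠ b := fun h h' e => by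
    rw [← e, disjoint_self] at h; rw [h] at h'; simp at h'
  have hT : ∀ x ∈ ({O, A, Oᶜ \ A} : Finset _), x ∈ D ∩ Z ∧ x.card = 8 := by
    simp only [Finset.mem_insert, Finset.mem_singleton, forall_eq_or_imp, forall_eq]
    exact ⟨⟨hO, h8⟩, ⟨hA, by omega⟩, hB, by omega⟩
  refine fin 8 1 rfl ((ncard_le_pow {O, A, Oᶜ \ A} (fun p => ?_) fun x hx y hy =>
    hs x (hT x hx).1 (Or.inl (hT x hx).2) y (hI hy)).trans
      (Nat.pow_le_pow_right (by norm_num) Finset.card_le_three)) ?_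
  · by_cases h : p ∈ O <;> by_cases h' : p ∈ A <;> simp [h, h']
  rw [one_mul]
  refine modeT cf ⟨Finset.card_eq_three.2 ⟨_, _, _, ne d1 h8, ne d2 h8, ne d3 (by omega), rfl⟩,
    fun x hx => ⟨gc (hD (hT x hx).1.1), (hT x hx).2⟩, ?_⟩ fun x hx =>
      ⟨fun σ hσ => fD σ hσ x (hT x hx).1.1, hs x (hT x hx).1 (Or.inl (hT x hx).2)⟩
  simp only [Finset.mem_insert, Finset.mem_singleton, forall_eq_or_imp, forall_eq]
  exact ⟨⟨fun h => absurd rfl h, fun _ => d1, fun _ => d2⟩, ⟨fun _ => d1.symm, fun h => absurd rfl h,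
    fun _ => d3⟩, fun _ => d2.symm, fun _ => d3.symm, fun h => absurd rfl h⟩

end Cfsg.Agent.Mon.RkM
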