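import Mathlib

/-! Extensions of groups by vector spaces: sections, cocycles and the theorems of Gaschütz. -/

set_option autoImplicit false

namespace Cfsg.Agent.Mon.Cx

open Subgroup

/-- An extension of the group `G` by the module `V`. -/
structure Ext (F V G Γ : Type*) [Field F] [AddCommGroup V] [Module F V] [Group G] [Group Γ] where
  ρ : G →* Module.End F V
  π : Γ →* G
  j : V → Γ
  surj : Function.Surjective π
  add : ∀ v w, j (v + w) = j v * j w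
  inj : ∀ v, j v = 1 → v = 0
  ker : ∀ γ, π γ = 1 ↔ ∃ v, j v = γ
  conj : ∀ γ v, γ * j v = j (ρ (π γ) v) * γ

variable {F V G Γ : Type*} [Field F] [AddCommGroup V] [Module F V] [Group G] [Group Γ]

/-- Cocycles on a subgroup. -/
def Coc (ρ : G →* Module.End F V) (L : Subgroup G) (c : G → V) : Prop :=
  ∀ a ∈ L, ∀ b ∈ L, c (a * b) = c a + ρ a (c b)

/-- The fixed space of a subgroup. -/
def fixS (ρ : G →* Module.End F V) (O : Subgroup G) : Submodule F V where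
  carrier := {v | ∀ o ∈ O, ρ o v = v}
  add_mem' := fun {a b} ha hb o ho => by rw [map_add, ha o ho, hb o ho]
  zero_mem' := fun o _ => map_zero _
  smul_mem' := fun c a ha o ho => by rw [map_smul, ha o ho]

/-- The pointwise stabiliser of a set of vectors. -/
def cen (ρ : G →* Module.End F V) (W : Set V) : Subgroup G where
  carrier := {g | ∀ v ∈ W, ρ g v = v}
  mul_mem' := fun {a b} ha hb v hv => by rw [map_mul, Module.End.mul_apply, hb v hv, ha v hv]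
  one_mem' := fun v _ => by simp
  inv_mem' := fun {a} ha v hv => by
    conv_lhs => rw [← ha v hv]
    rw [← Module.End.mul_apply, ← map_mul]; simp

section
variable {ρ : G →* Module.End F V} {K L O : Subgroup G} {c : G → V}

theorem mem_fixS {v : V} : v ∈ fixS ρ O ↔ ∀ o ∈ O, ρ o v = v := Iff.rfl

theorem mem_cen {W : Set V} {g : G} : g ∈ cen ρ W ↔ ∀ v ∈ W, ρ g v = v := Iff.rfl

theorem mul_ap (a b : G) (v : V) : ρ (a * b) v = ρ a (ρ b v) := by rw [map_mul]; rfl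

theorem inv_ap (a : G) (v : V) : ρ a⁻¹ (ρ a v) = v := by rw [← mul_ap]; simp

theorem ap_inv (a : G) (v : V) : ρ a (ρ a⁻¹ v) = v := by rw [← mul_ap]; simp

theorem map_fixS {a : G} (h : ∀ o ∈ O, a⁻¹ * o * a ∈ O) {v : V} (hv : v ∈ fixS ρ O) :
    ρ a v ∈ fixS ρ O := fun o ho => by
  conv_rhs => rw [← hv _ (h o ho)]
  rw [← mul_ap, ← mul_ap]; congr 2; group

theorem Coc.mono (h : Coc ρ L c) (hK : K ≤ L) : Coc ρ K c := fun a ha b hb => h a (hK ha) b (hK hb)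

theorem Coc.one (h : Coc ρ L c) : c 1 = 0 := by simpa using h 1 L.one_mem 1 L.one_mem

theorem Coc.sub_cob (h : Coc ρ L c) (v : V) : Coc ρ L fun a => c a - (v - ρ a v) := fun a ha b hb => by
  simp only [h a ha b hb, mul_ap, map_sub]; abel

/-- The zero set of a cocycle. -/
def Coc.zero (h : Coc ρ L c) : Subgroup G where
  carrier := {a | a ∈ L ∧ c a = 0}
  mul_mem' := fun {a b} ha hb => ⟨mul_mem ha.1 hb.1, by rw [h a ha.1 b hb.1, ha.2, hb.2]; simp⟩
  one_mem' := ⟨L.one_mem, h.one⟩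
  inv_mem' := fun {a} ha => ⟨inv_mem ha.1, by
    have := h _ (inv_mem ha.1) a ha.1
    rw [inv_mul_cancel, h.one, ha.2] at this
    simpa using this.symm⟩

theorem Coc.pow (h : Coc ρ L c) {y : G} (hy : y ∈ L) (e : ρ y (c y) = c y) (n : ℕ) :
    c (y ^ n) = (n : F) • c y := by
  induction n with
  | zero => simpa using h.one
  | succ n ih => rw [pow_succ', h _ hy _ (pow_mem hy n), ih, map_smul, e]; push_cast; module

/-- A cocycle vanishing on a subgroup of invertible index is a coboundary. -/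
theorem Coc.avg (h : Coc ρ L c) (hK : K ≤ L) (hi : (K.relIndex L : F) ≠ 0) (h0 : ∀ a ∈ K, c a = 0) :
    ∃ v, v ∈ fixS ρ K ∧ ∀ a ∈ L, c a = v - ρ a v := by
  have hn : (K.subgroupOf L).index ≠ 0 := fun e => hi (by rw [relIndex, e]; simp)
  let _ := fintypeOfIndexNeZero hn
  have e1 : ∀ (a : L) (q : L ⧸ K.subgroupOf L), c (a • q).out = c a + ρ a (c q.out) := fun a q => by
    obtain ⟨k, hk⟩ := QuotientGroup.mk_out_eq_mul (K.subgroupOf L) (a * q.out)
    rw [← smul_eq_mul, ← MulAction.Quotient.smul_mk, QuotientGroup.out_eq'] at hk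
    rw [hk, smul_eq_mul, coe_mul, h _ (a * q.out).2 _ k.1.2, h0 k.1 k.2, map_zero, add_zero,
      coe_mul, h _ a.2 _ q.out.2]
  have e2 : ∀ a ∈ L, c a = (K.relIndex L : F)⁻¹ • ∑ q : L ⧸ K.subgroupOf L, c q.out -
      ρ a ((K.relIndex L : F)⁻¹ • ∑ q : L ⧸ K.subgroupOf L, c q.out) := fun a ha => by
    have := (Equiv.sum_comp (MulAction.toPerm (⟨a, ha⟩ : L))
      fun q : L ⧸ K.subgroupOf L => c q.out).symm.trans
      (Finset.sum_congr (s₁ := Finset.univ) rfl fun q _ => e1 ⟨a, ha⟩ q)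
    rw [Finset.sum_add_distrib, Finset.sum_const, Finset.card_univ, ← Nat.card_eq_fintype_card,
      ← map_sum, ← Nat.cast_smul_eq_nsmul F] at this
    rw [map_smul, ← smul_sub, sub_eq_of_eq_add this]
    exact (inv_smul_smul₀ hi _).symm
  exact ⟨_, fun a ha => (sub_eq_zero.1 ((e2 a (hK ha)).symm.trans (h0 a ha))).symm, e2⟩

theorem relIndex_ne (hK : K ≤ O) (hi : (K.relIndex L : F) ≠ 0) : (O.relIndex L : F) ≠ 0 := by
  obtain ⟨k, hk⟩ := relIndex_dvd_of_le_left L hK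
  rw [hk, Nat.cast_mul] at hi
  exact left_ne_zero_of_mul hi

theorem relIndex_ne' (hK : K ≤ O) (hO : O ≤ L) (hi : (K.relIndex L : F) ≠ 0) :
    (K.relIndex O : F) ≠ 0 := by
  rw [← relIndex_mul_relIndex K O L hK hO, Nat.cast_mul] at hi
  exact left_ne_zero_of_mul hi

/-- The elements of `L` of invertible order that fix `W`. -/
def nn (ρ : G →* Module.End F V) (L : Subgroup G) (W : Set V) : Subgroup G :=
  closure {y | y ∈ L ∧ y ∈ cen ρ W ∧ ∃ m : ℕ, (m : F) ≠ 0 ∧ y ^ m = 1}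

theorem nn_le {W : Set V} : nn ρ L W ≤ L := (closure_le _).2 fun _ h => h.1

/-- Vanishing of the first cohomology. -/
theorem Coc.cob (h : Coc ρ L c) (hO : O ≤ L) (hn : ∀ a ∈ L, ∀ o ∈ O, a⁻¹ * o * a ∈ O)
    (hc : (Nat.card O : F) ≠ 0) (hi : ((nn ρ L (fixS ρ O)).relIndex L : F) ≠ 0) :
    ∃ v, ∀ a ∈ L, c a = v - ρ a v := by
  obtain ⟨v, -, hv⟩ := (h.mono hO).avg bot_le (by rwa [relIndex_bot_left])
    (fun a ha => by rw [mem_bot.1 ha, h.one])
  have h1 := h.sub_cob v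
  have h2 : ∀ a ∈ L, c a - (v - ρ a v) ∈ fixS ρ O := fun a ha o ho => by
    have e1 := h1 a ha _ (hO (hn a ha o ho))
    have e2 := h1 o (hO ho) a ha
    dsimp only at e1 e2
    rw [hv _ (hn a ha o ho), ← mul_assoc, mul_inv_cancel_left] at e1
    rw [e1, hv o ho] at e2
    simpa using e2.symm
  have h3 : nn ρ L (fixS ρ O) ≤ h1.zero := (closure_le h1.zero).2 (by
    rintro y ⟨y1, y2, m, m1, m2⟩
    have := h1.pow y1 (y2 _ (h2 y y1)) m
    rw [m2] at this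
    exact ⟨y1, (smul_eq_zero_iff_right m1).1 (this.symm.trans h1.one)⟩)
  obtain ⟨w, -, hw⟩ := h1.avg nn_le hi fun a ha => (h3 ha).2
  exact ⟨v + w, fun a ha => by rw [map_add, sub_eq_iff_eq_add.1 (hw a ha)]; abel⟩

/-- Covering by cosets bounds the index. -/
theorem relIndex_le {S : Set G} (hS : ∀ g ∈ S, g⁻¹ ∈ S) (ws : List G) (h1 : (1 : G) ∈ ws)
    (h : ∀ g ∈ S, ∀ w ∈ ws, ∃ u ∈ ws, u⁻¹ * (g * w) ∈ K) :
    K.relIndex (closure S) ≠ 0 ∧ K.relIndex (closure S) ≤ ws.length := by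
  classical
  have key : ∀ a ∈ closure S, ∃ u ∈ ws, u⁻¹ * a ∈ K := fun a ha => by
    induction ha using closure_induction_left with
    | one => exact ⟨1, h1, by simp⟩
    | mul_left g hg a _ ih =>
      obtain ⟨u, hu, e⟩ := ih
      obtain ⟨w, hw, e'⟩ := h g hg u hu
      exact ⟨w, hw, by simpa [mul_assoc] using mul_mem e' e⟩
    | inv_mul_cancel g hg a _ ih =>
      obtain ⟨u, hu, e⟩ := ih
      obtain ⟨w, hw, e'⟩ := h _ (hS g hg) u hu
      exact ⟨w, hw, by simpa [mul_assoc] using mul_mem e' e⟩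
  choose f f1 f2 using key
  let φ : closure S ⧸ K.subgroupOf (closure S) → ws.toFinset :=
    fun q => ⟨f q.out q.out.2, List.mem_toFinset.2 (f1 _ _)⟩
  have hφ : Function.Injective φ := fun p q e => by
    rw [← QuotientGroup.out_eq' p, ← QuotientGroup.out_eq' q, QuotientGroup.eq, mem_subgroupOf]
    have := mul_mem (inv_mem (f2 _ p.out.2)) (f2 _ q.out.2)
    rw [show f p.out p.out.2 = f q.out q.out.2 from congrArg Subtype.val e] at this
    simpa [mul_assoc] using this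
  have := Finite.of_injective φ hφ
  refine ⟨index_ne_zero_iff_finite.2 this, (Nat.card_le_card_of_injective φ hφ).trans ?_⟩
  rw [Nat.card_eq_fintype_card, Fintype.card_coe]
  exact ws.toFinset_card_le

theorem cast_ne (h2 : (2 : F) ≠ 0) (h3 : (3 : F) ≠ 0) {n : ℕ} (h : n ≠ 0 ∧ n ≤ 3) : (n : F) ≠ 0 := by
  obtain ⟨a, b⟩ := h
  interval_cases n
  · exact absurd rfl a
  · simp
  · simpa using h2
  · simpa using h3

/-- A group generated by involutions acting by signs on `W`. -/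
theorem nn_index (h2 : (2 : F) ≠ 0) {S : Set G} {W : Set V} (hW : ∀ v ∈ W, -v ∈ W) {m : ℕ}
    (hm : (m : F) ≠ 0) (s2 : ∀ g ∈ S, g * g = 1) (sm : ∀ g ∈ S, ∀ k ∈ S, (g * k) ^ m = 1)
    (pm : ∀ g ∈ S, (∀ v ∈ W, ρ g v = v) ∨ ∀ v ∈ W, ρ g v = -v) :
    ((nn ρ (closure S) W).relIndex (closure S) : F) ≠ 0 := by
  have hS : ∀ g ∈ S, g⁻¹ = g := fun g hg => inv_eq_of_mul_eq_one_left (s2 g hg)
  have a1 : ∀ g ∈ S, (∀ v ∈ W, ρ g v = v) → g ∈ nn ρ (closure S) W := fun g hg e =>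
    subset_closure ⟨subset_closure hg, e, 2, by simpa using h2, by rw [pow_two, s2 g hg]⟩
  have a2 : ∀ g ∈ S, ∀ k ∈ S, (∀ v ∈ W, ρ g v = -v) → (∀ v ∈ W, ρ k v = -v) →
      g * k ∈ nn ρ (closure S) W := fun g hg k hk e e' =>
    subset_closure ⟨mul_mem (subset_closure hg) (subset_closure hk), fun v hv => by
      rw [mul_ap, e' v hv, e _ (hW v hv), neg_neg], m, hm, sm g hg k hk⟩
  have fin : ∀ n : ℕ, n ≠ 0 ∧ n ≤ 2 → (n : F) ≠ 0 := fun n ⟨a, b⟩ => by
    interval_cases n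
    · exact absurd rfl a
    · simp
    · simpa using h2
  by_cases e : ∃ k ∈ S, ∀ v ∈ W, ρ k v = -v
  · obtain ⟨k, hk, e⟩ := e
    refine fin _ (relIndex_le (fun g hg => by rwa [hS g hg]) [1, k] (by simp) fun g hg w hw => ?_)
    rcases List.mem_pair.1 hw with rfl | rfl <;> rcases pm g hg with a | a
    · exact ⟨1, by simp, by simpa using a1 g hg a⟩
    · exact ⟨k, by simp, by rw [hS k hk, mul_one]; exact a2 k hk g hg e a⟩
    · refine ⟨w, by simp, subset_closure ⟨mul_mem (inv_mem (subset_closure hk)) (mul_mem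
        (subset_closure hg) (subset_closure hk)), fun v hv => ?_, 2, by simpa using h2, ?_⟩⟩
      · rw [mul_ap, mul_ap, e v hv, a _ (hW v hv), ← e v hv, inv_ap]
      · rw [pow_two, show w⁻¹ * (g * w) * (w⁻¹ * (g * w)) = w⁻¹ * (g * g) * w by group, s2 g hg]; simp
    · exact ⟨1, by simp, by simpa using a2 g hg w hk a e⟩
  · refine fin _ ((relIndex_le (fun g hg => by rwa [hS g hg]) [1] (by simp) fun g hg w hw => ?_).imp
      id fun a => a.trans (by simp))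
    rw [List.mem_singleton.1 hw]
    exact ⟨1, by simp, by simpa using a1 g hg ((pm g hg).resolve_right fun a => e ⟨g, hg, a⟩)⟩

end

namespace Ext

variable (X : Ext F V G Γ)

/-- Sections over a subgroup. -/
structure Sec (K : Subgroup G) (s : G → Γ) : Prop where
  pi : ∀ a ∈ K, X.π (s a) = a
  mul : ∀ a ∈ K, ∀ b ∈ K, s (a * b) = s a * s b

theorem j_zero : X.j 0 = 1 := by simpa using X.add 0 0

theorem j_neg (v : V) : X.j (-v) = (X.j v)⁻¹ :=
  eq_inv_of_mul_eq_one_left (by rw [← X.add, neg_add_cancel, X.j_zero])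

theorem j_inj {v w : V} (h : X.j v = X.j w) : v = w :=
  sub_eq_zero.1 (X.inj _ (by rw [sub_eq_add_neg, X.add, X.j_neg, h, mul_inv_cancel]))

theorem pi_j (v : V) : X.π (X.j v) = 1 := (X.ker _).2 ⟨v, rfl⟩

theorem j_pow (v : V) (n : ℕ) : X.j v ^ n = X.j ((n : F) • v) := by
  induction n with
  | zero => simp [j_zero]
  | succ n ih => rw [pow_succ, ih, ← X.add]; congr 1; push_cast; module

theorem exists_j {γ δ : Γ} (h : X.π γ = X.π δ) : ∃ v, γ = X.j v * δ := by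
  obtain ⟨v, hv⟩ := (X.ker (γ * δ⁻¹)).1 (by simp [h])
  exact ⟨v, by rw [hv]; simp⟩

theorem comm_iff (γ : Γ) (v : V) : γ * X.j v = X.j v * γ ↔ X.ρ (X.π γ) v = v := by
  rw [X.conj, mul_left_inj]
  exact ⟨X.j_inj, fun h => by rw [h]⟩

theorem cj_eq (γ : Γ) (v : V) : X.j v * γ * (X.j v)⁻¹ = X.j (v - X.ρ (X.π γ) v) * γ := by
  rw [← j_neg, mul_assoc, X.conj, ← mul_assoc, ← X.add, map_neg, sub_eq_add_neg]

/-- Pull-back along a homomorphism. -/
def comap {L : Type*} [Group L] (κ : L →* G) :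
    Ext F V L ((κ.comp (MonoidHom.fst L Γ)).eqLocus (X.π.comp (MonoidHom.snd L Γ))) where
  ρ := X.ρ.comp κ
  π := (MonoidHom.fst L Γ).comp (Subgroup.subtype _)
  j v := ⟨(1, X.j v), (map_one κ).trans (X.pi_j v).symm⟩
  surj a := by
    obtain ⟨γ, h⟩ := X.surj (κ a)
    exact ⟨⟨(a, γ), h.symm⟩, rfl⟩
  add v w := Subtype.ext (Prod.ext (one_mul _).symm (X.add v w))
  inj v h := X.inj v (congrArg (fun γ => γ.1.2) h)
  ker γ := ⟨fun h => by
    obtain ⟨v, hv⟩ := (X.ker γ.1.2).1 ((show κ γ.1.1 = X.π γ.1.2 from γ.2).symm.trans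
      (by rw [show γ.1.1 = 1 from h, map_one]))
    exact ⟨v, Subtype.ext (Prod.ext (Eq.symm h) hv)⟩, by rintro ⟨v, rfl⟩; rfl⟩
  conj γ v := Subtype.ext (Prod.ext ((mul_one _).trans (one_mul _).symm) (by
    have := X.conj γ.1.2 v
    rw [← show κ γ.1.1 = X.π γ.1.2 from γ.2] at this
    exact this))

variable {X} {K L O : Subgroup G} {s s' : G → Γ}

theorem Sec.mono (h : X.Sec L s) (hK : K ≤ L) : X.Sec K s :=
  ⟨fun a ha => h.1 a (hK ha), fun a ha b hb => h.2 a (hK ha) b (hK hb)⟩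

theorem Sec.one (h : X.Sec L s) : s 1 = 1 := by simpa using h.2 1 L.one_mem 1 L.one_mem

theorem Sec.inv (h : X.Sec L s) {a : G} (ha : a ∈ L) : s a⁻¹ = (s a)⁻¹ :=
  eq_inv_of_mul_eq_one_left (by rw [← h.2 _ (inv_mem ha) _ ha, inv_mul_cancel, h.one])

theorem sec_bot : X.Sec ⊥ fun _ => 1 := ⟨fun a ha => by rw [mem_bot.1 ha, map_one], by simp⟩

theorem Sec.tw (h : X.Sec L s) (v : V) : X.Sec L fun a => X.j v * s a * (X.j v)⁻¹ :=
  ⟨fun a ha => by simp [X.pi_j, h.1 a ha], fun a ha b hb => by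
    rw [h.2 a ha b hb]; group⟩

theorem Sec.diff (h : X.Sec L s) (h' : X.Sec L s') :
    ∃ c, Coc X.ρ L c ∧ ∀ a ∈ L, s' a = X.j (c a) * s a := by
  have : ∀ a, ∃ v, a ∈ L → s' a = X.j v * s a := fun a => by
    by_cases ha : a ∈ L
    · exact (X.exists_j ((h'.1 a ha).trans (h.1 a ha).symm)).imp fun _ e _ => e
    · exact ⟨0, fun e => absurd e ha⟩
  choose c hc using this
  refine ⟨c, fun a ha b hb => X.j_inj (mul_right_cancel (b := s (a * b)) ?_), hc⟩
  rw [← hc _ (mul_mem ha hb), h'.2 a ha b hb, hc a ha, hc b hb, h.2 a ha b hb, X.add, mul_assoc,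
    ← mul_assoc (s a), X.conj, h.1 a ha]
  group

/-- Conjugacy of sections. -/
theorem Sec.conj_of (h : X.Sec L s) (h' : X.Sec L s') (hK : K ≤ L) (hi : (K.relIndex L : F) ≠ 0)
    (e : ∀ a ∈ K, s' a = s a) :
    ∃ v ∈ fixS X.ρ K, ∀ a ∈ L, s' a = X.j v * s a * (X.j v)⁻¹ := by
  obtain ⟨c, c1, c2⟩ := h.diff h'
  obtain ⟨v, v1, v2⟩ := c1.avg hK hi fun a ha => X.inj _ (by
    have := c2 a (hK ha)
    rwa [e a ha, eq_comm, mul_eq_right] at this)
  exact ⟨v, v1, fun a ha => by rw [X.cj_eq, h.1 a ha, ← v2 a ha, c2 a ha]⟩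

theorem Sec.conj_nn (h : X.Sec L s) (h' : X.Sec L s') (hO : O ≤ L)
    (hn : ∀ a ∈ L, ∀ o ∈ O, a⁻¹ * o * a ∈ O) (hc : (Nat.card O : F) ≠ 0)
    (hi : ((nn X.ρ L (fixS X.ρ O)).relIndex L : F) ≠ 0) :
    ∃ v, ∀ a ∈ L, s' a = X.j v * s a * (X.j v)⁻¹ := by
  obtain ⟨c, c1, c2⟩ := h.diff h'
  obtain ⟨v, v2⟩ := c1.cob hO hn hc hi
  exact ⟨v, fun a ha => by rw [X.cj_eq, h.1 a ha, ← v2 a ha, c2 a ha]⟩

theorem sec_of (R : Subgroup Γ) (h : ∀ γ ∈ R, X.π γ = 1 → γ = 1) :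
    ∃ s, X.Sec (R.map X.π) s ∧ ∀ γ ∈ R, s (X.π γ) = γ := by
  have : ∀ a, ∃ γ, a ∈ R.map X.π → γ ∈ R ∧ X.π γ = a := fun a => by
    by_cases ha : a ∈ R.map X.π
    · exact ha.imp fun _ e _ => e
    · exact ⟨1, fun e => absurd e ha⟩
  choose s hs using this
  have e : ∀ γ ∈ R, ∀ δ ∈ R, X.π γ = X.π δ → γ = δ := fun γ a δ b e =>
    mul_inv_eq_one.1 (h _ (mul_mem a (inv_mem b)) (by simp [e]))
  exact ⟨s, ⟨fun a ha => (hs a ha).2, fun a ha b hb => e _ (hs _ (mul_mem ha hb)).1 _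
    (mul_mem (hs a ha).1 (hs b hb).1) (by rw [map_mul, (hs a ha).2, (hs b hb).2, (hs _ (mul_mem ha hb)).2])⟩,
    fun γ hγ => e _ (hs _ ⟨γ, hγ, rfl⟩).1 _ hγ (hs _ ⟨γ, hγ, rfl⟩).2⟩

theorem Sec.top (h : X.Sec K s) (hi : (K.index : F) ≠ 0) : ∃ s', X.Sec ⊤ s' := by
  have hn : K.index ≠ 0 := fun e => hi (by rw [e]; simp)
  let _ := fintypeOfIndexNeZero hn
  have : ∀ γ, ∃ v, X.π γ ∈ K → γ = X.j v * s (X.π γ) := fun γ => by
    by_cases ha : X.π γ ∈ K
    · exact (X.exists_j (h.1 _ ha).symm).imp fun _ e _ => e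
    · exact ⟨0, fun e => absurd e ha⟩
  choose δ hδ using this
  have d1 : ∀ a b, X.π a ∈ K → X.π b ∈ K → δ (a * b) = δ a + X.ρ (X.π a) (δ b) := fun a b ha hb => by
    have hab : X.π (a * b) ∈ K := by rw [map_mul]; exact mul_mem ha hb
    refine X.j_inj (mul_right_cancel (b := s (X.π (a * b))) ?_)
    have e := X.conj (s (X.π a)) (δ b)
    rw [h.1 _ ha] at e
    rw [← hδ _ hab, map_mul, h.2 _ ha _ hb, X.add, mul_assoc, ← mul_assoc (X.j (X.ρ _ _)), ← e,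
      mul_assoc, ← hδ _ hb, ← mul_assoc, ← hδ _ ha]
  have d2 : ∀ v, δ (X.j v) = v := fun v => X.j_inj (by
    have := hδ (X.j v) (by rw [X.pi_j]; exact K.one_mem)
    rw [X.pi_j, h.one, mul_one] at this
    exact this.symm)
  choose σ hσ using X.surj
  let u : Γ → G ⧸ K → Γ := fun γ q => (σ (X.π γ • q).out)⁻¹ * γ * σ q.out
  have u1 : ∀ γ q, X.π (u γ q) = (X.π γ • q).out⁻¹ * X.π γ * q.out := fun γ q => by simp [u, hσ]
  have u2 : ∀ γ q, X.π (u γ q) ∈ K := fun γ q => by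
    rw [u1, mul_assoc, ← QuotientGroup.eq, QuotientGroup.out_eq', ← smul_eq_mul,
      ← MulAction.Quotient.smul_mk, QuotientGroup.out_eq']
  let D : Γ → V := fun γ => ∑ q : G ⧸ K, X.ρ (X.π γ • q).out (δ (u γ q))
  have D1 : ∀ a b, D (a * b) = D a + X.ρ (X.π a) (D b) := fun a b => by
    simp only [D]
    rw [← Equiv.sum_comp (MulAction.toPerm (X.π b)) fun q => X.ρ (X.π a • q).out (δ (u a q)),
      map_sum, ← Finset.sum_add_distrib]
    refine Finset.sum_congr rfl fun q _ => ?_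
    have e : u (a * b) q = u a (X.π b • q) * u b q := by
      simp only [u, map_mul, mul_smul]; group
    rw [e, d1 _ _ (u2 _ _) (u2 _ _), map_add, u1, map_mul X.π, mul_smul, MulAction.toPerm_apply,
      ← mul_ap, ← mul_ap]
    congr 3; group
  have D2 : ∀ v, D (X.j v) = (K.index : F) • v := fun v => by
    have : ∀ q : G ⧸ K, X.ρ (X.π (X.j v) • q).out (δ (u (X.j v) q)) = v := fun q => by
      simp only [u, X.pi_j, one_smul]
      rw [X.conj, inv_mul_cancel_right, d2, map_inv, hσ, ap_inv]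
    simp only [D, this]
    rw [Finset.sum_const, Finset.card_univ, ← Nat.card_eq_fintype_card, ← Nat.cast_smul_eq_nsmul F]
    rfl
  have D3 : Coc (X.ρ.comp X.π) ⊤ D := fun a _ b _ => D1 a b
  obtain ⟨s', hs, -⟩ := sec_of (X := X) D3.zero fun γ hγ e => by
    obtain ⟨v, rfl⟩ := (X.ker γ).1 e
    rw [(smul_eq_zero_iff_right hi).1 ((D2 v).symm.trans hγ.2), X.j_zero]
  refine ⟨s', hs.mono fun a _ => ⟨X.j (-((K.index : F)⁻¹ • D (σ a))) * σ a, ⟨trivial, ?_⟩, ?_⟩⟩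
  · rw [D1, D2, X.pi_j, smul_neg, smul_inv_smul₀ hi]; simp
  · rw [map_mul, X.pi_j, one_mul, hσ]

/-- The theorem of Gaschütz. -/
theorem Sec.up (h : X.Sec K s) (hi : (K.relIndex L : F) ≠ 0) : ∃ s', X.Sec L s' := by
  classical
  have h1 : (X.comap L.subtype).Sec (K.subgroupOf L)
      fun a => if e : (a : G) ∈ K then ⟨(a, s a), (h.1 a e).symm⟩ else 1 := by
    refine ⟨fun a ha => by rw [dif_pos (mem_subgroupOf.1 ha)]; rfl, fun a ha b hb => ?_⟩
    rw [dif_pos (mem_subgroupOf.1 ha), dif_pos (mem_subgroupOf.1 hb),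
      dif_pos (mem_subgroupOf.1 (mul_mem ha hb))]
    exact Subtype.ext (Prod.ext rfl (h.2 _ ha _ hb))
  obtain ⟨t, t1, t2⟩ := h1.top hi
  refine ⟨fun a => if e : a ∈ L then (t ⟨a, e⟩).1.2 else 1, fun a ha => ?_, fun a ha b hb => ?_⟩
  · rw [dif_pos ha]
    exact (show _ = _ from (t ⟨a, ha⟩).2).symm.trans (congrArg Subtype.val (t1 ⟨a, ha⟩ trivial))
  · rw [dif_pos ha, dif_pos hb, dif_pos (mul_mem ha hb)]
    exact congrArg (fun γ => γ.1.2) (t2 ⟨a, ha⟩ trivial ⟨b, hb⟩ trivial)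

theorem exists_sec (hc : (Nat.card O : F) ≠ 0) : ∃ s, X.Sec O s :=
  sec_bot.up (by rwa [relIndex_bot_left])

/-- The elements over `L` that are compatible with a section over the normal subgroup `O`. -/
def Sec.nrm (_ : X.Sec O s) (hn : ∀ a ∈ L, ∀ o ∈ O, a⁻¹ * o * a ∈ O) : Subgroup Γ where
  carrier := {γ | X.π γ ∈ L ∧ ∀ o ∈ O, s o * γ = γ * s ((X.π γ)⁻¹ * o * X.π γ)}
  one_mem' := ⟨by simp, by simp⟩
  mul_mem' := fun {a b} ha hb => ⟨by rw [map_mul]; exact mul_mem ha.1 hb.1, fun o ho => by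
    rw [← mul_assoc, ha.2 o ho, mul_assoc, hb.2 _ (hn _ ha.1 o ho), map_mul, mul_assoc a]
    congr 3; group⟩
  inv_mem' := fun {a} ha => ⟨by rw [map_inv]; exact inv_mem ha.1, fun o ho => by
    have := ha.2 _ (hn _ (inv_mem ha.1) o ho)
    rw [map_inv, eq_inv_mul_iff_mul_eq, ← mul_assoc, mul_inv_eq_iff_eq_mul, this]
    congr 2; group⟩

section
variable (h : X.Sec O s) (hn : ∀ a ∈ L, ∀ o ∈ O, a⁻¹ * o * a ∈ O)

theorem Sec.j_mem {v : V} : X.j v ∈ h.nrm hn ↔ v ∈ fixS X.ρ O := by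
  refine ⟨fun e o ho => ?_, fun e => ⟨by rw [X.pi_j]; exact L.one_mem, fun o ho => ?_⟩⟩
  · have := e.2 o ho
    rwa [X.pi_j, inv_one, one_mul, mul_one, X.comm_iff, h.1 o ho] at this
  · rw [X.pi_j, inv_one, one_mul, mul_one, X.comm_iff, h.1 o ho, e o ho]

theorem Sec.s_mem (hO : O ≤ L) {o : G} (ho : o ∈ O) : s o ∈ h.nrm hn :=
  ⟨by rw [h.1 o ho]; exact hO ho, fun k hk => by
    rw [h.1 o ho, ← h.2 k hk o ho, ← h.2 o ho _ (hn o (hO ho) k hk)]; congr 1; group⟩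

theorem Sec.nrm_surj (hc : (Nat.card O : F) ≠ 0) {a : G} (ha : a ∈ L) :
    ∃ γ ∈ h.nrm hn, X.π γ = a := by
  obtain ⟨γ, rfl⟩ := X.surj a
  have h1 : X.Sec O fun o => γ * s ((X.π γ)⁻¹ * o * X.π γ) * γ⁻¹ :=
    ⟨fun o ho => by rw [map_mul, map_mul, h.1 _ (hn _ ha o ho), map_inv]; group, fun o ho k hk => by
      rw [show (X.π γ)⁻¹ * (o * k) * X.π γ = ((X.π γ)⁻¹ * o * X.π γ) * ((X.π γ)⁻¹ * k * X.π γ) by
        group, h.2 _ (hn _ ha o ho) _ (hn _ ha k hk)]; group⟩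
  obtain ⟨v, -, hv⟩ := h1.conj_of h bot_le (by rwa [relIndex_bot_left]) fun a ha => by
    rw [mem_bot.1 ha]; simp [h.one]
  refine ⟨X.j v * γ, ⟨by simpa [X.pi_j] using ha, fun o ho => ?_⟩, by simp [X.pi_j]⟩
  rw [hv o ho, map_mul, X.pi_j, one_mul]; group

end

/-- The case of a cyclic Sylow subgroup and a central fixed space. -/
theorem exists_sec_cyc (hn : ∀ a ∈ L, ∀ o ∈ O, a⁻¹ * o * a ∈ O) (hc : (Nat.card O : F) ≠ 0)
    (hi : ((nn X.ρ L (fixS X.ρ O)).relIndex L : F) ≠ 0) {p : ℕ} (hp : p.Prime) (p0 : (p : F) = 0)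
    {x : G} (x1 : x ∈ L) (x2 : x ∈ cen X.ρ (fixS X.ρ O)) (x3 : x ^ p = 1)
    (x4 : ((zpowers x).relIndex L : F) ≠ 0) : ∃ s, X.Sec L s := by
  obtain ⟨s, h⟩ := exists_sec (X := X) hc
  let P : Subgroup Γ := h.nrm hn ⊓ (cen X.ρ (fixS X.ρ O)).comap X.π
  let φ : P →* G := X.π.comp P.subtype
  have pj : ∀ γ : P, φ γ = 1 → ∃ v ∈ fixS X.ρ O, X.j v = γ := fun γ e => by
    obtain ⟨v, hv⟩ := (X.ker γ).1 e
    exact ⟨v, (h.j_mem hn).1 (hv ▸ γ.2.1), hv⟩
  have jP : ∀ v ∈ fixS X.ρ O, X.j v ∈ P := fun v hv =>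
    ⟨(h.j_mem hn).2 hv, mem_comap.2 (by rw [X.pi_j]; exact one_mem _)⟩
  have cz : ∀ γ δ : P, φ δ = 1 → γ * δ = δ * γ := fun γ δ e => by
    obtain ⟨v, v1, v2⟩ := pj δ e
    exact Subtype.ext (by rw [coe_mul, coe_mul, ← v2, X.comm_iff, γ.2.2 v v1])
  have rg : φ.range = L ⊓ cen X.ρ (fixS X.ρ O) := by
    refine le_antisymm (by rintro _ ⟨γ, rfl⟩; exact ⟨γ.2.1.1, γ.2.2⟩) fun a ha => ?_
    obtain ⟨γ, e1, rfl⟩ := h.nrm_surj hn hc ha.1
    exact ⟨⟨γ, e1, ha.2⟩, rfl⟩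
  obtain ⟨y, hy⟩ := rg.ge ⟨x1, x2⟩
  let A : Subgroup P := (zpowers x).comap φ
  have a1 : ∀ a : A, ∃ k : ℤ, φ (a * (y ^ k)⁻¹) = 1 := fun a => by
    obtain ⟨k, hk⟩ := a.2
    exact ⟨k, by rw [map_mul, map_inv, map_zpow, hy, mul_inv_eq_one]; exact hk.symm⟩
  have a2 : ∀ a b : A, a * b = b * a := fun a b => by
    obtain ⟨k, hk⟩ := a1 a
    obtain ⟨l, hl⟩ := a1 b
    have c1 : Commute (y ^ k) (b : P) := by
      rw [← inv_mul_cancel_right (b : P) (y ^ l)]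
      exact Commute.mul_right (cz _ _ hl) ((Commute.refl y).zpow_zpow k l)
    refine Subtype.ext ?_
    rw [coe_mul, coe_mul, ← inv_mul_cancel_right (a : P) (y ^ k)]
    exact (Commute.mul_left (cz _ _ hk).symm c1).eq
  let _ : CommGroup A := { (inferInstance : Group A) with mul_comm := a2 }
  have ai : (A.index : F) ≠ 0 := by
    rw [index_comap, rg]
    exact relIndex_ne' (zpowers_le.2 ⟨x1, x2⟩) inf_le_left x4
  have : A.FiniteIndex := ⟨fun e => ai (by rw [e]; simp)⟩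
  have a3 : ∀ a : A, a ^ (p * p) = 1 := fun a => by
    obtain ⟨k, hk⟩ := a.2
    obtain ⟨v, -, hv⟩ := pj (a.1 ^ p) (by
      rw [map_pow, ← hk, ← zpow_natCast, ← zpow_mul, mul_comm, zpow_mul, zpow_natCast, x3, one_zpow])
    refine Subtype.ext (Subtype.ext ?_)
    rw [pow_mul]
    change ((a.1 ^ p : P) : Γ) ^ p = 1
    rw [← hv, X.j_pow, p0, zero_smul, X.j_zero]
  let τ := MonoidHom.transfer (MonoidHom.id A)
  obtain ⟨t, ht, -⟩ := sec_of (X := X) (τ.ker.map P.subtype) (by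
    rintro _ ⟨γ, e1, rfl⟩ e2
    have e3 := MonoidHom.transfer_eq_pow (MonoidHom.id A) γ fun k g _ => by
      rw [← cz g⁻¹ _ (show φ (γ ^ k) = 1 by rw [map_pow, show φ γ = 1 from e2, one_pow]) |>.symm,
        inv_mul_cancel_right]
    obtain ⟨v, -, hv⟩ := pj γ e2
    have e4 : (γ : Γ) ^ A.index = 1 := congrArg (fun a : A => (a.1 : Γ)) (e3.symm.trans e1)
    rw [← hv, X.j_pow] at e4
    rw [coe_subtype, ← hv, (smul_eq_zero_iff_right ai).1 (X.inj _ e4), X.j_zero])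
  refine ht.up (relIndex_ne ((closure_le _).2 ?_) hi)
  rintro a ⟨b1, b2, m, m1, m2⟩
  obtain ⟨γ, rfl⟩ := rg.ge ⟨b1, b2⟩
  obtain ⟨v, v1, v2⟩ := pj (γ ^ m) (by rw [map_pow, m2])
  have v3 := Submodule.neg_mem _ (Submodule.smul_mem _ (m : F)⁻¹ v1)
  have c1 : φ ⟨_, jP _ v3⟩ = 1 := X.pi_j _
  have c2 : (γ * ⟨_, jP _ v3⟩) ^ m = 1 := by
    rw [Commute.mul_pow (cz _ _ c1)]
    refine Subtype.ext ?_
    rw [coe_mul, ← v2, coe_pow, X.j_pow, smul_neg, smul_inv_smul₀ m1, X.j_neg, mul_inv_cancel, coe_one]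
  refine ⟨_, ⟨γ * ⟨_, jP _ v3⟩, ?_, rfl⟩, show φ _ = _ by rw [map_mul, c1, mul_one]⟩
  have c3 : Nat.Coprime p m := (hp.coprime_iff_not_dvd).2 fun ⟨k, hk⟩ => m1 (by
    rw [hk, Nat.cast_mul, p0, zero_mul])
  have := pow_gcd_eq_one.2 ⟨a3 (τ (γ * ⟨_, jP _ v3⟩)), (show τ _ ^ m = 1 by rw [← map_pow, c2, map_one])⟩
  rwa [Nat.Coprime.mul_left c3 c3, pow_one] at this

end Ext

/-- Weight vectors for distinct weights are independent. -/
theorem wt_zero {ι S : Type*} (σ : S → Module.End F V) (χ : ι → S → F) (v : ι → V) (A : Finset ι)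
    (hχ : ∀ i ∈ A, ∀ k ∈ A, χ i = χ k → i = k) (hv : ∀ i ∈ A, ∀ s, σ s (v i) = χ i s • v i)
    (h : ∑ i ∈ A, v i = 0) : ∀ i ∈ A, v i = 0 := by
  classical
  induction A using Finset.induction_on generalizing v with
  | empty => simp
  | insert a A ha ih =>
    have key : ∀ i ∈ A, v i = 0 := fun i hi => by
      obtain ⟨s, hs⟩ := Function.ne_iff.1 fun e => ha
        (hχ i (by simp [hi]) a (by simp) e ▸ hi)
      have := ih (fun k => (χ k s - χ a s) • v k) (fun i hi k hk => hχ i (by simp [hi]) k (by simp [hk]))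
        (fun k hk t => by rw [map_smul, hv k (by simp [hk]), smul_comm]) (by
          have e := congrArg (fun x => σ s x - χ a s • x) h
          simp only [map_sum, Finset.smul_sum, ← Finset.sum_sub_distrib, map_zero, smul_zero,
            sub_zero] at e
          rw [Finset.sum_congr rfl fun k hk => by rw [hv k hk, ← sub_smul], Finset.sum_insert ha,
            sub_self, zero_smul, zero_add] at e
          exact e) i hi
      exact (smul_eq_zero_iff_right (sub_ne_zero.2 hs)).1 this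
    rw [Finset.sum_insert ha, Finset.sum_eq_zero key, add_zero] at h
    simpa [h] using key

theorem wt_card [FiniteDimensional F V] {ι S : Type*} (σ : S → Module.End F V) (χ : ι → S → F)
    (A : Finset ι) (hχ : ∀ i ∈ A, ∀ k ∈ A, χ i = χ k → i = k)
    (hv : ∀ i ∈ A, ∃ v ≠ 0, ∀ s, σ s v = χ i s • v) (χ₀ : S → F) (h0 : ∀ i ∈ A, χ i ≠ χ₀)
    (W : Submodule F V) (hW : ∀ w ∈ W, ∀ s, σ s w = χ₀ s • w) :
    A.card + Module.finrank F W ≤ Module.finrank F V := by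
  classical
  choose v v0 v1 using fun i : A => hv i i.2
  have key : ∀ (c : A → F), ∀ w ∈ W, ∑ i, c i • v i = w → ∀ i, c i = 0 := fun c w hw e i => by
    have := wt_zero σ (fun o : Option A => o.elim χ₀ fun i => χ i)
      (fun o => o.elim (-w) fun i => c i • v i) Finset.univ (by
        rintro (_ | i) - (_ | k) - e
        · rfl
        · exact absurd e.symm (h0 k k.2)
        · exact absurd e (h0 i i.2)
        · exact congrArg some (Subtype.ext (hχ i i.2 k k.2 e))) (by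
        rintro (_ | i) - s
        · simp [hW w hw s]
        · simp only [Option.elim, map_smul, v1, smul_comm (c i)]) (by
        rw [Fintype.sum_option]; exact neg_add_eq_zero.2 e.symm) (some i) (Finset.mem_univ _)
    exact (smul_eq_zero_iff_left (v0 i)).1 this
  have li : LinearIndependent F v := Fintype.linearIndependent_iff.2 fun c e => key c 0 W.zero_mem e
  rw [← Fintype.card_coe, ← finrank_span_eq_card li]
  refine Submodule.finrank_add_finrank_le_of_disjoint (Submodule.disjoint_def.2 fun w h1 h2 => ?_)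
  obtain ⟨c, rfl⟩ := (Submodule.mem_span_range_iff_exists_fun F).1 h1
  simp [key c _ h2 rfl]

end Cfsg.Agent.Mon.Cx
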