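import Mathlib

/-! Package MOD2, part a: lattices over valuation rings. -/

set_option autoImplicit false

namespace Cfsg.Agent.Mon.M2

open Module Submodule

variable {K V : Type*} [Field K] [AddCommGroup V] [Module K V]

theorem split_step (O : ValuationSubring K) (b : LinearMap.BilinForm K V)
    (hs : ∀ x y, b x y = b y x) (hp : ∀ x, b x x = 0 → x = 0) (S : Finset V)
    (h0 : finrank K (span K (S : Set V)) ≠ 0) :
    (∃ x ∈ span O (S : Set V), x ≠ 0 ∧ ∀ y ∈ S, O.valuation (b x y) ≤ O.valuation (b x x)) ∨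
    ∃ S' : Finset V, finrank K (span K (S' : Set V)) + 2 = finrank K (span K (S : Set V)) ∧
      (S' : Set V) ⊆ span O (S : Set V) ∧
      ∀ x ∈ span O (S' : Set V), ∀ y ∈ S, ∃ y' ∈ S', b x y = b x y' := by
  classical
  obtain ⟨y0, hy0, hy0'⟩ : ∃ y ∈ S, y ≠ 0 := by
    by_contra hc
    push Not at hc
    apply h0
    have : span K (S : Set V) = ⊥ := span_eq_bot.2 hc
    rw [this, finrank_bot]
  obtain ⟨⟨u, w⟩, huw, hmax⟩ := (S ×ˢ S).exists_max_image (fun q => O.valuation (b q.1 q.2))
    ⟨(y0, y0), Finset.mem_product.2 ⟨hy0, hy0⟩⟩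
  obtain ⟨hu, hw⟩ := Finset.mem_product.1 huw
  simp only at hu hw hmax
  have hm : ∀ x ∈ S, ∀ y ∈ S, O.valuation (b x y) ≤ O.valuation (b u w) := fun x hx y hy =>
    hmax (x, y) (Finset.mem_product.2 ⟨hx, hy⟩)
  have hd0 : O.valuation (b u w) ≠ 0 := by
    intro e
    have := hm y0 hy0 y0 hy0
    rw [e, le_zero_iff, Valuation.zero_iff] at this
    exact hy0' (hp _ this)
  have diag : ∀ x ∈ S, ¬ O.valuation (b x x) < O.valuation (b u w) →
      ∃ x ∈ span O (S : Set V), x ≠ 0 ∧ ∀ y ∈ S, O.valuation (b x y) ≤ O.valuation (b x x) := by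
    intro x hx h
    rw [not_lt] at h
    refine ⟨x, subset_span hx, ?_, fun y hy => (hm x hx y hy).trans h⟩
    rintro rfl
    simp only [map_zero, le_zero_iff] at h
    exact hd0 h
  by_cases ha : O.valuation (b u u) < O.valuation (b u w)
  swap
  · exact Or.inl (diag u hu ha)
  by_cases hc : O.valuation (b w w) < O.valuation (b u w)
  swap
  · exact Or.inl (diag w hw hc)
  right
  set a := b u u with ha'
  set c := b w w with hc'
  set d := b u w with hd'
  have hD : O.valuation (a * c - d * d) = O.valuation d * O.valuation d := by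
    rw [Valuation.map_sub_eq_of_lt_right, map_mul]
    rw [map_mul, map_mul]
    exact mul_lt_mul'' ha hc zero_le zero_le
  have hD0 : a * c - d * d ≠ 0 := by
    intro e
    rw [e, map_zero] at hD
    exact mul_ne_zero hd0 hd0 hD.symm
  let α : V → K := fun y => (c * b y u - d * b y w) / (a * c - d * d)
  let β : V → K := fun y => (a * b y w - d * b y u) / (a * c - d * d)
  let p : V → V := fun y => y - α y • u - β y • w
  have hpu : ∀ y, b (p y) u = 0 := fun y => by
    simp only [p, α, β, map_sub, map_smul, LinearMap.sub_apply, LinearMap.smul_apply, smul_eq_mul,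
      ← ha', hs w u, ← hd', div_eq_mul_inv]
    linear_combination (-b y u) * mul_inv_cancel₀ hD0
  have hpw : ∀ y, b (p y) w = 0 := fun y => by
    simp only [p, α, β, map_sub, map_smul, LinearMap.sub_apply, LinearMap.smul_apply, smul_eq_mul,
      ← hc', ← hd', div_eq_mul_inv]
    linear_combination (-b y w) * mul_inv_cancel₀ hD0
  have key : ∀ s t s' t' : K, O.valuation s ≤ O.valuation d → O.valuation t ≤ O.valuation d →
      O.valuation s' ≤ O.valuation d → O.valuation t' ≤ O.valuation d →
      (s * t - s' * t') / (a * c - d * d) ∈ O := by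
    intro s t s' t' h1 h2 h3 h4
    rw [← O.valuation_le_one_iff, map_div₀, hD, div_le_one₀ (zero_lt_iff.2 (mul_ne_zero hd0 hd0))]
    refine Valuation.map_sub_le _ ?_ ?_ <;> rw [map_mul]
    · exact mul_le_mul' h1 h2
    · exact mul_le_mul' h3 h4
  have hα : ∀ y ∈ S, α y ∈ O := fun y hy =>
    key _ _ _ _ hc.le (hm y hy u hu) le_rfl (hm y hy w hw)
  have hβ : ∀ y ∈ S, β y ∈ O := fun y hy =>
    key _ _ _ _ ha.le (hm y hy w hw) le_rfl (hm y hy u hu)
  have horth : ∀ x ∈ span K ((S.image p : Finset V) : Set V), b x u = 0 ∧ b x w = 0 := by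
    intro x hx
    induction hx using span_induction with
    | mem x hx =>
      obtain ⟨y, -, rfl⟩ := Finset.mem_image.1 hx
      exact ⟨hpu y, hpw y⟩
    | zero => simp
    | add x y _ _ h1 h2 => simp [h1.1, h1.2, h2.1, h2.2]
    | smul s x _ h1 => simp [h1.1, h1.2]
  refine ⟨S.image p, ?_, ?_, ?_⟩
  · have hli : LinearIndependent K ![u, w] := by
      rw [LinearIndependent.pair_iff]
      intro s t hst
      have h1 := congrArg (fun x => b x u) hst
      have h2 := congrArg (fun x => b x w) hst
      simp only [map_add, map_smul, LinearMap.add_apply, LinearMap.smul_apply, smul_eq_mul,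
        map_zero, LinearMap.zero_apply, ← ha', ← hc', ← hd', hs w u] at h1 h2
      constructor
      · apply mul_right_cancel₀ hD0
        linear_combination c * h1 - d * h2
      · apply mul_right_cancel₀ hD0
        linear_combination a * h2 - d * h1
    have h2 : finrank K (span K ({u, w} : Set V)) = 2 := by
      have := finrank_span_eq_card hli
      rwa [Matrix.range_cons_cons_empty, Fintype.card_fin] at this
    have hsup : span K ((S.image p : Finset V) : Set V) ⊔ span K ({u, w} : Set V) =
        span K (S : Set V) := by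
      apply le_antisymm
      · refine sup_le (span_le.2 ?_) (span_mono ?_)
        · intro x hx
          obtain ⟨y, hy, rfl⟩ := Finset.mem_image.1 hx
          exact sub_mem (sub_mem (subset_span hy) (smul_mem _ _ (subset_span hu)))
            (smul_mem _ _ (subset_span hw))
        · rintro x (rfl | rfl)
          · exact hu
          · exact hw
      · refine span_le.2 fun y hy => ?_
        have : y = p y + (α y • u + β y • w) := by simp only [p]; abel
        rw [this]
        exact add_mem_sup (subset_span (Finset.mem_coe.2 (Finset.mem_image_of_mem p hy)))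
          (add_mem (smul_mem _ _ (subset_span (by simp))) (smul_mem _ _ (subset_span (by simp))))
    have hinf : span K ((S.image p : Finset V) : Set V) ⊓ span K ({u, w} : Set V) = ⊥ := by
      rw [eq_bot_iff]
      rintro x ⟨h1, h2⟩
      obtain ⟨s, t, rfl⟩ := mem_span_pair.1 h2
      obtain ⟨h3, h4⟩ := horth _ h1
      refine hp _ ?_
      conv_lhs => rw [map_add, map_smul, map_smul, h3, h4]
      simp
    have : FiniteDimensional K (span K ({u, w} : Set V)) :=
      FiniteDimensional.span_of_finite K (Set.toFinite _)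
    have := finrank_sup_add_finrank_inf_eq (span K ((S.image p : Finset V) : Set V))
      (span K ({u, w} : Set V))
    rw [hsup, hinf, finrank_bot, h2] at this
    omega
  · intro x hx
    obtain ⟨y, hy, rfl⟩ := Finset.mem_image.1 hx
    exact sub_mem (sub_mem (subset_span hy) (smul_mem _ (⟨α y, hα y hy⟩ : O) (subset_span hu)))
      (smul_mem _ (⟨β y, hβ y hy⟩ : O) (subset_span hw))
  · intro x hx y hy
    refine ⟨p y, Finset.mem_image_of_mem p hy, ?_⟩
    obtain ⟨h3, h4⟩ := horth x (span_le_restrictScalars O K _ hx)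
    simp [p, h3, h4]

theorem exists_split (O : ValuationSubring K) (b : LinearMap.BilinForm K V)
    (hs : ∀ x y, b x y = b y x) (hp : ∀ x, b x x = 0 → x = 0) (n : ℕ) (S : Finset V)
    (h : finrank K (span K (S : Set V)) = 2 * n + 1) :
    ∃ x ∈ span O (S : Set V), x ≠ 0 ∧ ∀ y ∈ S, O.valuation (b x y) ≤ O.valuation (b x x) := by
  induction n generalizing S with
  | zero =>
    rcases split_step O b hs hp S (by omega) with h1 | ⟨S', h1, -⟩
    · exact h1
    · omega
  | succ n ih =>
    rcases split_step O b hs hp S (by omega) with h1 | ⟨S', h1, h2, h3⟩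
    · exact h1
    · obtain ⟨x, hx, hx0, hx1⟩ := ih S' (by omega)
      refine ⟨x, span_le.2 h2 hx, hx0, fun y hy => ?_⟩
      obtain ⟨y', hy', e⟩ := h3 x hx y hy
      rw [e]
      exact hx1 y' hy'

/-- A lattice over a valuation ring has a basis. -/
theorem exists_basis (O : ValuationSubring K) [FiniteDimensional K V] (S : Finset V)
    (hS : span K (S : Set V) = ⊤) : ∃ e : Basis (Fin (finrank K V)) K V,
      (∀ i, e i ∈ span O (S : Set V)) ∧ ∀ x ∈ span O (S : Set V), ∀ i, e.repr x i ∈ O := by
  set L := span O (S : Set V) with hL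
  have : IsLattice K L := ⟨⟨S, rfl⟩, by rw [hL, span_span_of_tower, hS]⟩
  have : Module.Flat O L := by
    rw [Module.Flat.flat_iff_torsion_eq_bot_of_isBezout, eq_bot_iff]
    rintro x ⟨⟨r, hr⟩, hx⟩
    have hr0 : (r : K) ≠ 0 := fun e => nonZeroDivisors.ne_zero hr (Subtype.ext e)
    have : (r : K) • (x : V) = 0 := congrArg Subtype.val hx
    exact Subtype.ext ((smul_eq_zero.1 this).resolve_left hr0)
  have : Module.Free O L := Module.free_of_flat_of_isLocalRing
  let f := Module.Free.chooseBasis O L
  let g := f.extendOfIsLattice K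
  let σ := g.indexEquiv (Module.finBasis K V)
  refine ⟨g.reindex σ, fun i => ?_, fun x hx i => ?_⟩
  · rw [Basis.reindex_apply, Basis.extendOfIsLattice_apply]
    exact (f _).2
  · rw [Basis.repr_reindex_apply]
    have h1 : x = ∑ j, ((f.repr ⟨x, hx⟩ j : O) : K) • g j := by
      have := congrArg Subtype.val (f.sum_repr ⟨x, hx⟩)
      rw [Submodule.coe_sum] at this
      refine this.symm.trans (Finset.sum_congr rfl fun j _ => ?_)
      rw [Basis.extendOfIsLattice_apply]
      rfl
    have h2 : g.repr x (σ.symm i) = (f.repr ⟨x, hx⟩ (σ.symm i) : O) := by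
      conv_lhs => rw [h1]
      rw [g.repr_sum_self]
    rw [h2]
    exact Subtype.prop _

theorem exists_form {H : Type*} [Group H] [Finite H] {V : Type*} [AddCommGroup V] [Module ℝ V]
    [FiniteDimensional ℝ V] (ρ : Representation ℝ H V) : ∃ b : LinearMap.BilinForm ℝ V,
      (∀ x y, b x y = b y x) ∧ (∀ x, b x x = 0 → x = 0) ∧ ∀ h x y, b (ρ h x) (ρ h y) = b x y := by
  have := Fintype.ofFinite H
  let e := Module.finBasis ℝ V
  let b : LinearMap.BilinForm ℝ V := ∑ h : H, ∑ i,
    (LinearMap.mul ℝ ℝ).compl₁₂ ((e.coord i).comp (ρ h)) ((e.coord i).comp (ρ h))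
  have hb : ∀ x y, b x y = ∑ h : H, ∑ i, e.repr (ρ h x) i * e.repr (ρ h y) i := fun x y => by
    simp [b, LinearMap.sum_apply]
  refine ⟨b, fun x y => ?_, fun x hx => ?_, fun g x y => ?_⟩
  · simp only [hb, mul_comm]
  · rw [hb, Finset.sum_eq_zero_iff_of_nonneg
      fun h _ => Finset.sum_nonneg fun i _ => mul_self_nonneg _] at hx
    have h1 := hx 1 (Finset.mem_univ _)
    rw [Finset.sum_eq_zero_iff_of_nonneg fun i _ => mul_self_nonneg _] at h1
    refine e.ext_elem fun i => ?_
    have := h1 i (Finset.mem_univ _)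
    simpa using this
  · rw [hb, hb]
    refine Fintype.sum_equiv (Equiv.mulRight g) _ _ fun h => ?_
    simp [map_mul]

theorem exists_val_two : ∃ O : ValuationSubring ℝ, O.valuation 2 < 1 := by
  let A : Subring ℝ := ⊥
  let I : Ideal A := Ideal.span {2}
  have hI : I ≠ ⊤ := by
    rw [Ne, Ideal.span_singleton_eq_top]
    intro hu
    obtain ⟨⟨c, hc⟩, e⟩ := hu.exists_right_inv
    obtain ⟨m, rfl⟩ := Subring.mem_bot.1 hc
    have : (2 : ℝ) * m = 1 := congrArg Subtype.val e
    have h2 : (2 : ℤ) * m = 1 := by exact_mod_cast this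
    omega
  obtain ⟨O, -, h⟩ := Ideal.image_subset_nonunits_valuationSubring I hI
  exact ⟨O, (O.mem_nonunits_iff).1 (h ⟨2, Ideal.subset_span rfl, rfl⟩)⟩

open Matrix in
/-- integral matrices with an invariant form that has a unit on the diagonal -/
theorem exists_matrices {H : Type*} [Group H] [Finite H] {V : Type*} [AddCommGroup V] [Module ℝ V]
    [FiniteDimensional ℝ V] (ρ : Representation ℝ H V) {n : ℕ} (hn : finrank ℝ V = 2 * n + 1)
    (O : ValuationSubring ℝ) (h2 : O.valuation 2 < 1) :
    ∃ (A : H →* Matrix (Fin (finrank ℝ V)) (Fin (finrank ℝ V)) ℝ)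
      (G : Matrix (Fin (finrank ℝ V)) (Fin (finrank ℝ V)) ℝ), (∀ h i j, A h i j ∈ O) ∧
      (∀ i j, G i j ∈ O) ∧ Gᵀ = G ∧ (∀ h, (A h)ᵀ * G * A h = G) ∧ (∃ i, O.valuation (G i i) = 1) ∧
      ∀ h, A h = 1 → ρ h = 1 := by
  classical
  have := Fintype.ofFinite H
  obtain ⟨b, hs, hp, hi⟩ := exists_form ρ
  let e₀ := Module.finBasis ℝ V
  let S : Finset V := Finset.univ.image fun q : H × Fin (finrank ℝ V) => ρ q.1 (e₀ q.2)
  have hSi : ∀ g, ∀ y ∈ S, ρ g y ∈ S := by
    intro g y hy
    obtain ⟨⟨h, i⟩, -, rfl⟩ := Finset.mem_image.1 hy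
    exact Finset.mem_image.2 ⟨(g * h, i), Finset.mem_univ _, by simp [map_mul]⟩
  have hS : span ℝ (S : Set V) = ⊤ := by
    rw [eq_top_iff, ← e₀.span_eq]
    refine span_mono ?_
    rintro _ ⟨i, rfl⟩
    exact Finset.mem_coe.2 (Finset.mem_image.2 ⟨(1, i), Finset.mem_univ _, by simp⟩)
  obtain ⟨x, hx, hx0, hx1⟩ := exists_split O b hs hp n S (by rw [hS, finrank_top, hn])
  have hγ : b x x ≠ 0 := fun e => hx0 (hp x e)
  have hγ' : 0 < O.valuation (b x x) := zero_lt_iff.2 ((Valuation.ne_zero_iff _).2 hγ)
  have inv : ∀ T : Finset V, (∀ g, ∀ y ∈ T, ρ g y ∈ T) → ∀ g, ∀ y ∈ span O (T : Set V),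
      ρ g y ∈ span O (T : Set V) := by
    intro T hT g y hy
    induction hy using span_induction with
    | mem y hy => exact subset_span (hT g y hy)
    | zero => simp
    | add x y _ _ h1 h2 => rw [map_add]; exact add_mem h1 h2
    | smul s x _ h1 =>
      rw [show ρ g (s • x) = s • ρ g x from map_smul (ρ g) (s : ℝ) x]
      exact smul_mem _ _ h1
  have ext1 : ∀ (T : Finset V) (u : V), (∀ y ∈ T, b u y / b x x ∈ O) →
      ∀ y ∈ span O (T : Set V), b u y / b x x ∈ O := by
    intro T u hT y hy
    induction hy using span_induction with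
    | mem y hy => exact hT y hy
    | zero => simp
    | add x y _ _ h1 h2 => rw [map_add, add_div]; exact add_mem h1 h2
    | smul s y _ h1 =>
      rw [show b u (s • y) = (s : ℝ) * b u y from map_smul (b u) (s : ℝ) y, mul_div_assoc]
      exact mul_mem s.2 h1
  have hx2 : ∀ g, ∀ y ∈ span O (S : Set V), b (ρ g x) y / b x x ∈ O := by
    intro g y hy
    have : b (ρ g x) y = b x (ρ g⁻¹ y) := by
      rw [← hi g x (ρ g⁻¹ y), ← Module.End.mul_apply, ← map_mul, mul_inv_cancel, map_one,
        Module.End.one_apply]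
    rw [this]
    refine ext1 S x (fun y hy => ?_) _ (inv S hSi _ y hy)
    rw [← O.valuation_le_one_iff, map_div₀, div_le_one₀ hγ']
    exact hx1 y hy
  obtain ⟨⟨c, hc⟩, hc'⟩ := IsLocalization.exist_integer_multiples_of_finset (nonZeroDivisors O)
    ((S ×ˢ S).image fun q => b q.1 q.2 / b x x)
  have hc0 : (c : ℝ) ≠ 0 := fun e => nonZeroDivisors.ne_zero hc (Subtype.ext e)
  let T : Finset V := (Finset.univ.image fun g : H => ρ g x) ∪ S.image fun y => (c : ℝ) • y
  have hTi : ∀ g, ∀ y ∈ T, ρ g y ∈ T := by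
    intro g y hy
    rcases Finset.mem_union.1 hy with hy | hy
    · obtain ⟨h, -, rfl⟩ := Finset.mem_image.1 hy
      exact Finset.mem_union_left _
        (Finset.mem_image.2 ⟨g * h, Finset.mem_univ _, by simp [map_mul]⟩)
    · obtain ⟨y', hy', rfl⟩ := Finset.mem_image.1 hy
      exact Finset.mem_union_right _ (Finset.mem_image.2 ⟨_, hSi g y' hy', by simp⟩)
  have hT : span ℝ (T : Set V) = ⊤ := by
    rw [eq_top_iff, ← hS]
    refine span_le.2 fun y hy => ?_
    have : y = (c : ℝ)⁻¹ • (c : ℝ) • y := by rw [smul_smul, inv_mul_cancel₀ hc0, one_smul]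
    rw [this]
    exact smul_mem _ _ (subset_span (Finset.mem_coe.2
      (Finset.mem_union_right _ (Finset.mem_image_of_mem _ hy))))
  have hTS : ∀ y ∈ T, y ∈ span O (S : Set V) := by
    intro y hy
    rcases Finset.mem_union.1 hy with hy | hy
    · obtain ⟨h, -, rfl⟩ := Finset.mem_image.1 hy
      exact inv S hSi h x hx
    · obtain ⟨y', hy', rfl⟩ := Finset.mem_image.1 hy
      exact smul_mem _ c (subset_span hy')
  have hTT : ∀ u ∈ T, ∀ y ∈ T, b u y / b x x ∈ O := by
    intro u hu y hy
    rcases Finset.mem_union.1 hu with hu' | hu'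
    · obtain ⟨h, -, rfl⟩ := Finset.mem_image.1 hu'
      exact hx2 h y (hTS y hy)
    · rcases Finset.mem_union.1 hy with hy' | hy'
      · obtain ⟨h, -, rfl⟩ := Finset.mem_image.1 hy'
        rw [hs]
        exact hx2 h u (hTS u hu)
      · clear hu hy
        obtain ⟨u, hu, rfl⟩ := Finset.mem_image.1 hu'
        obtain ⟨y, hy, rfl⟩ := Finset.mem_image.1 hy'
        obtain ⟨d, hd⟩ := hc' _ (Finset.mem_image_of_mem _ (Finset.mk_mem_product hu hy))
        have hd' : (d : ℝ) = c * (b u y / b x x) := hd
        have : b ((c : ℝ) • u) ((c : ℝ) • y) / b x x = c * d := by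
          rw [hd']; simp only [map_smul, LinearMap.smul_apply, smul_eq_mul]; ring
        rw [this]
        exact mul_mem c.2 d.2
  have hLL : ∀ u ∈ span O (T : Set V), ∀ y ∈ span O (T : Set V), b u y / b x x ∈ O := by
    intro u hu y hy
    refine ext1 T u (fun y hy => ?_) y hy
    rw [hs]
    exact ext1 T y (fun u hu => hTT y hy u hu) u hu
  obtain ⟨e, he, he'⟩ := exists_basis O T hT
  let G : Matrix (Fin (finrank ℝ V)) (Fin (finrank ℝ V)) ℝ := fun i j => b (e i) (e j) / b x x
  have hG : ∀ i j, G i j ∈ O := fun i j => hLL _ (he i) _ (he j)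
  have hGb : ∀ u y : V, b u y / b x x = ∑ i, ∑ j, e.repr u i * G i j * e.repr y j := by
    intro u y
    conv_lhs => rw [← e.sum_repr u, ← e.sum_repr y]
    simp only [map_sum, map_smul, LinearMap.sum_apply, LinearMap.smul_apply, smul_eq_mul,
      Finset.sum_div, Finset.mul_sum, G]
    rw [Finset.sum_comm]
    refine Finset.sum_congr rfl fun i _ => Finset.sum_congr rfl fun j _ => ?_
    ring
  refine ⟨(LinearMap.toMatrixAlgEquiv e).toMonoidHom.comp ρ, G, fun h i j => ?_, hG, ?_,
    fun h => ?_, ?_, fun h hh => ?_⟩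
  · show LinearMap.toMatrix e e (ρ h) i j ∈ O
    rw [LinearMap.toMatrix_apply]
    exact he' _ (inv T hTi h _ (he j)) i
  · ext i j
    show b (e j) (e i) / b x x = b (e i) (e j) / b x x
    rw [hs]
  · ext i j
    show ((LinearMap.toMatrix e e (ρ h))ᵀ * G * LinearMap.toMatrix e e (ρ h)) i j =
      b (e i) (e j) / b x x
    rw [← hi h, hGb, Finset.sum_comm]
    simp only [Matrix.mul_apply, transpose_apply, LinearMap.toMatrix_apply, Finset.sum_mul]
  · by_contra hcon
    push Not at hcon
    have hlt : ∀ i, O.valuation (G i i) < 1 := fun i =>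
      lt_of_le_of_ne ((O.valuation_le_one_iff _).2 (hG i i)) (hcon i)
    have hxT : x ∈ span O (T : Set V) := subset_span (Finset.mem_coe.2 (Finset.mem_union_left _
      (Finset.mem_image.2 ⟨1, Finset.mem_univ _, by simp⟩)))
    have hq : ∀ y ∈ span O (Set.range e), y ∈ span O (T : Set V) ∧
        O.valuation (b y y / b x x) < 1 := by
      intro y hy
      induction hy using span_induction with
      | mem y hy =>
        obtain ⟨i, rfl⟩ := hy
        exact ⟨he i, hlt i⟩
      | zero => simp
      | add u y _ _ h1 h3 =>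
        refine ⟨add_mem h1.1 h3.1, ?_⟩
        have : b (u + y) (u + y) / b x x =
            b u u / b x x + b y y / b x x + 2 * (b u y / b x x) := by
          simp only [map_add, LinearMap.add_apply, hs y u]; ring
        rw [this]
        refine Valuation.map_add_lt _ (Valuation.map_add_lt _ h1.2 h3.2) ?_
        rw [map_mul]
        exact mul_lt_one_of_lt_of_le h2 ((O.valuation_le_one_iff _).2 (hLL _ h1.1 _ h3.1))
      | smul s y _ h1 =>
        refine ⟨smul_mem _ _ h1.1, ?_⟩
        have : b (s • y) (s • y) / b x x = b y y / b x x * ((s : ℝ) * s) := by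
          rw [show s • y = (s : ℝ) • y from rfl]
          simp only [map_smul, LinearMap.smul_apply, smul_eq_mul]; ring
        rw [this, map_mul]
        exact mul_lt_one_of_lt_of_le h1.2 ((O.valuation_le_one_iff _).2 (mul_mem s.2 s.2))
    have hxe : x ∈ span O (Set.range e) := by
      rw [← e.sum_repr x]
      exact sum_mem fun i _ => smul_mem _ (⟨_, he' x hxT i⟩ : O) (subset_span ⟨i, rfl⟩)
    have := (hq x hxe).2
    rw [div_self hγ, map_one] at this
    exact lt_irrefl _ this
  · exact (LinearMap.toMatrixAlgEquiv e).injective (hh.trans (map_one _).symm)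

end Cfsg.Agent.Mon.M2
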