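import Mathlib
import Cfsg.Agent.Mon.Mod2_a

/-! Package MOD2: reduction modulo 2 of a real representation of odd degree. -/

set_option autoImplicit false

namespace Cfsg.Agent.Mon

namespace M2

open Module Matrix

theorem exists_odd {H : Type*} [Group H] [Finite H] [IsSimpleGroup H]
    (hna : ¬ IsMulCommutative H) : ∃ h : H, h ≠ 1 ∧ Odd (orderOf h) := by
  by_contra hc
  push Not at hc
  have hp : IsPGroup 2 H := fun g => by
    obtain ⟨k, m, hm, e⟩ := Nat.exists_eq_two_pow_mul_odd (orderOf_pos g).ne'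
    refine ⟨k, ?_⟩
    by_contra h1
    apply hc _ h1
    have : orderOf (g ^ 2 ^ k) ∣ m := by
      rw [orderOf_dvd_iff_pow_eq_one, ← pow_mul, ← e, pow_orderOf_eq_one]
    exact Odd.of_dvd_nat hm this
  have : Fact (Nat.Prime 2) := ⟨Nat.prime_two⟩
  have := hp.isNilpotent
  exact hna ⟨⟨IsSimpleGroup.comm_iff_isSolvable.2 inferInstance⟩⟩

theorem eq_one_of_map {R F ι : Type*} [CommRing R] [IsDomain R] [Field F] [CharP F 2] [Fintype ι]
    [DecidableEq ι] (π : R →+* F) {A : Matrix ι ι R} {m : ℕ} (hm : Odd m) (hA : A ^ m = 1)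
    (h : π.mapMatrix A = 1) : A = 1 := by
  set S := ∑ i ∈ Finset.range m, A ^ i with hS
  have h1 : π.mapMatrix S = 1 := by
    rw [hS, map_sum]
    simp only [map_pow, h, one_pow, Finset.sum_const, Finset.card_range]
    obtain ⟨k, rfl⟩ := hm
    rw [← Nat.cast_smul_eq_nsmul F]
    simp [CharTwo.two_eq_zero]
  have h2 : S.det ≠ 0 := by
    intro e
    have := π.map_det S
    rw [e, map_zero, h1, det_one] at this
    exact zero_ne_one this
  have h3 : (A - 1) * S = 0 := by rw [hS, mul_geom_sum, hA, sub_self]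
  have h4 : S.det • (A - 1) = 0 := by
    have := congrArg (· * S.adjugate) h3
    simpa only [Matrix.mul_assoc, mul_adjugate, Matrix.mul_smul, Matrix.mul_one,
      Matrix.zero_mul] using this
  exact sub_eq_zero.1 ((smul_eq_zero.1 h4).resolve_left h2)

theorem exists_finite {H ι : Type*} [Group H] [Finite H] [Fintype ι] [DecidableEq ι]
    (O : ValuationSubring ℝ) (h2 : O.valuation 2 < 1) (A : H →* Matrix ι ι ℝ) (G : Matrix ι ι ℝ)
    (hA : ∀ h i j, A h i j ∈ O) (hG : ∀ i j, G i j ∈ O) (hs : Gᵀ = G)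
    (hi : ∀ h, (A h)ᵀ * G * A h = G) (hu : ∃ i, O.valuation (G i i) = 1) :
    ∃ (F : Type) (_ : Field F) (_ : Fintype F) (_ : CharP F 2) (A' : H →* Matrix ι ι F)
      (G' : Matrix ι ι F), G'ᵀ = G' ∧ (∀ h, (A' h)ᵀ * G' * A' h = G') ∧ (∃ i, G' i i ≠ 0) ∧
      ∀ h, Odd (orderOf h) → A' h = 1 → A h = 1 := by
  classical
  obtain ⟨i₀, hi₀⟩ := hu
  have h0 : G i₀ i₀ ≠ 0 := by
    intro e
    rw [e, map_zero] at hi₀
    exact zero_ne_one hi₀
  let T : Set ℝ := Set.range (fun q : H × ι × ι => A q.1 q.2.1 q.2.2) ∪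
    Set.range (fun q : ι × ι => G q.1 q.2) ∪ {(G i₀ i₀)⁻¹}
  have hT : T.Finite := ((Set.finite_range _).union (Set.finite_range _)).union
    (Set.finite_singleton _)
  let R : Subalgebra ℤ ℝ := Algebra.adjoin ℤ T
  have hft : Algebra.FiniteType ℤ R := .adjoin_of_finite hT
  have hRO : ∀ x ∈ R, x ∈ O := by
    intro x hx
    induction hx using Algebra.adjoin_induction with
    | mem x hx =>
      rcases hx with (⟨q, rfl⟩ | ⟨q, rfl⟩) | rfl
      · exact hA _ _ _
      · exact hG _ _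
      · rw [← O.valuation_le_one_iff, map_inv₀, hi₀, inv_one]
    | algebraMap r => exact intCast_mem O r
    | add x y _ _ h1 h2 => exact add_mem h1 h2
    | mul x y _ _ h1 h2 => exact mul_mem h1 h2
  have hI : Ideal.span {(2 : R)} ≠ ⊤ := by
    rw [Ne, Ideal.span_singleton_eq_top]
    intro hu
    obtain ⟨c, e⟩ := hu.exists_right_inv
    have e' : (2 : ℝ) * c = 1 := congrArg Subtype.val e
    have := mul_lt_one_of_lt_of_le h2 ((O.valuation_le_one_iff _).2 (hRO _ c.2))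
    rw [← map_mul, e', map_one] at this
    exact lt_irrefl _ this
  obtain ⟨M, hM, hle⟩ := Ideal.exists_le_maximal _ hI
  let := Ideal.Quotient.field M
  let π : R →+* R ⧸ M := Ideal.Quotient.mk M
  have h20 : (2 : R ⧸ M) = 0 := by
    rw [← map_ofNat π, Ideal.Quotient.eq_zero_iff_mem]
    exact hle (Ideal.subset_span rfl)
  have : Fact (Nat.Prime 2) := ⟨Nat.prime_two⟩
  have hch : CharP (R ⧸ M) 2 := (CharP.charP_iff_prime_eq_zero Nat.prime_two).2 h20
  have hfin : Finite (R ⧸ M) := by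
    let := ZMod.algebra (R ⧸ M) 2
    have : Algebra.FiniteType ℤ (R ⧸ M) := .of_surjective (Ideal.Quotient.mkₐ ℤ M)
      (Ideal.Quotient.mkₐ_surjective ℤ M)
    have : Algebra.FiniteType (ZMod 2) (R ⧸ M) := .of_restrictScalars_finiteType ℤ _ _
    have := finite_of_finite_type_of_isJacobsonRing (ZMod 2) (R ⧸ M)
    exact Module.finite_of_finite (ZMod 2)
  let j : R →+* ℝ := R.val.toRingHom
  have hj : Function.Injective (j.mapMatrix : Matrix ι ι R → Matrix ι ι ℝ) :=
    Matrix.map_injective Subtype.val_injective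
  let A₀ : H → Matrix ι ι R := fun h a b =>
    ⟨A h a b, Algebra.subset_adjoin (Or.inl (Or.inl ⟨(h, a, b), rfl⟩))⟩
  let G₀ : Matrix ι ι R := fun a b =>
    ⟨G a b, Algebra.subset_adjoin (Or.inl (Or.inr ⟨(a, b), rfl⟩))⟩
  have hA₀ : ∀ h, j.mapMatrix (A₀ h) = A h := fun h => rfl
  have hG₀ : j.mapMatrix G₀ = G := rfl
  let A₁ : H →* Matrix ι ι R :=
    { toFun := A₀
      map_one' := hj (by rw [hA₀, map_one, map_one])
      map_mul' := fun g h => hj (by rw [map_mul, hA₀, hA₀, hA₀, map_mul]) }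
  have hs₀ : G₀ᵀ = G₀ := hj hs
  have hi₁ : ∀ h, (A₀ h)ᵀ * G₀ * A₀ h = G₀ := fun h => hj (by
    rw [map_mul, map_mul, hA₀, hG₀]; exact hi h)
  refine ⟨R ⧸ M, inferInstance, Fintype.ofFinite _, hch, π.mapMatrix.toMonoidHom.comp A₁,
    π.mapMatrix G₀, congrArg π.mapMatrix hs₀, fun h => ?_, ⟨i₀, fun e => ?_⟩, fun h hh e => ?_⟩
  · have := congrArg π.mapMatrix (hi₁ h)
    rw [map_mul, map_mul] at this
    exact this
  · have e' : π (G₀ i₀ i₀) = 0 := e
    have : G₀ i₀ i₀ * ⟨(G i₀ i₀)⁻¹, Algebra.subset_adjoin (Or.inr rfl)⟩ = 1 :=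
      Subtype.ext (mul_inv_cancel₀ h0)
    have := congrArg π this
    rw [map_mul, e', zero_mul, map_one] at this
    exact zero_ne_one this
  · have : A₁ h = 1 := eq_one_of_map π hh (by rw [← map_pow, pow_orderOf_eq_one, map_one]) e
    rw [← hA₀, show A₀ h = 1 from this, map_one]

theorem quad_eq {F ι : Type*} [Field F] [CharP F 2] [Fintype ι] {G : Matrix ι ι F} (hs : Gᵀ = G)
    {c : ι → F} (hc : ∀ i, c i ^ 2 = G i i) (y : ι → F) : y ⬝ᵥ G *ᵥ y = (c ⬝ᵥ y) ^ 2 := by
  classical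
  have h1 : (c ⬝ᵥ y) ^ 2 = ∑ i, y i * G i i * y i := by
    rw [dotProduct, sum_pow_char]
    exact Finset.sum_congr rfl fun i _ => by rw [mul_pow, hc]; ring
  have h2 : y ⬝ᵥ G *ᵥ y = ∑ q ∈ Finset.univ ×ˢ Finset.univ, y q.1 * G q.1 q.2 * y q.2 := by
    rw [Finset.sum_product]
    simp only [dotProduct, mulVec, Finset.mul_sum, mul_assoc]
  rw [h1, h2, ← Finset.diag_union_offDiag, Finset.sum_union (Finset.disjoint_diag_offDiag _),
    Finset.sum_diag]
  have h3 : ∑ q ∈ (Finset.univ : Finset ι).offDiag, y q.1 * G q.1 q.2 * y q.2 = 0 := by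
    refine Finset.sum_involution (fun q _ => q.swap) (fun q _ => ?_) (fun q hq _ e => ?_)
      (fun q hq => ?_) (fun q _ => rfl)
    · have : G q.2 q.1 = G q.1 q.2 := congrFun (congrFun hs q.1) q.2
      simp only [Prod.fst_swap, Prod.snd_swap, this]
      linear_combination (y q.1 * G q.1 q.2 * y q.2) * CharTwo.two_eq_zero (R := F)
    · exact (Finset.mem_offDiag.1 hq).2.2 (congrArg Prod.snd e)
    · exact Finset.mem_offDiag.2 ⟨Finset.mem_univ _, Finset.mem_univ _,
        (Finset.mem_offDiag.1 hq).2.2.symm⟩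
  rw [h3, add_zero]

theorem exists_hyper {H F ι : Type*} [Group H] [Field F] [Fintype F] [CharP F 2] [Fintype ι]
    [DecidableEq ι] (A : H →* Matrix ι ι F) (G : Matrix ι ι F) (hs : Gᵀ = G)
    (hi : ∀ h, (A h)ᵀ * G * A h = G) (hu : ∃ i, G i i ≠ 0) {m : ℕ} (hm : Fintype.card ι = m + 1) :
    ∃ f : H →* GL (Fin m) F, ∀ h, f h = 1 → A (h * h) = 1 := by
  have : Fact (Nat.Prime 2) := ⟨Nat.prime_two⟩
  have hc : ∀ i, ∃ c : F, c ^ 2 = G i i := fun i => surjective_frobenius F 2 (G i i)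
  choose c hc using hc
  let l : (ι → F) →ₗ[F] F := (dotProductBilin F F) c
  have hl : ∀ y, l y = c ⬝ᵥ y := fun y => rfl
  have hinv : ∀ h y, l (A h *ᵥ y) = l y := by
    intro h y
    apply frobenius_inj F 2
    rw [frobenius_def, frobenius_def, hl, hl, ← quad_eq hs hc, ← quad_eq hs hc]
    conv_rhs => rw [← hi h]
    rw [← mulVec_mulVec, ← mulVec_mulVec, dotProduct_mulVec y, vecMul_transpose]
  obtain ⟨i₀, hi₀⟩ := hu
  have hr : LinearMap.range l = ⊤ := by
    have hc0 : c i₀ ≠ 0 := fun e => hi₀ (by rw [← hc, e]; simp)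
    rw [eq_top_iff]
    intro a _
    exact ⟨Pi.single i₀ ((c i₀)⁻¹ * a), by rw [hl, dotProduct_single, mul_inv_cancel_left₀ hc0]⟩
  have hk : finrank F (LinearMap.ker l) = m := by
    have := l.finrank_range_add_finrank_ker
    rw [hr, finrank_top, finrank_self, finrank_fintype_fun_eq_card, hm] at this
    omega
  have hW : ∀ h, ∀ y ∈ LinearMap.ker l, toLin' (A h) y ∈ LinearMap.ker l := fun h y hy => by
    rw [LinearMap.mem_ker, toLin'_apply, hinv]; exact hy
  let τ : H →* Module.End F (LinearMap.ker l) :=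
    { toFun := fun h => (toLin' (A h)).restrict (hW h)
      map_one' := LinearMap.ext fun y => Subtype.ext (by simp)
      map_mul' := fun g h => LinearMap.ext fun y => Subtype.ext (by simp) }
  let e := Module.finBasisOfFinrankEq F _ hk
  refine ⟨((LinearMap.toMatrixAlgEquiv e).toMonoidHom.comp τ).toHomUnits, fun h hh => ?_⟩
  have h1 : τ h = 1 := (LinearMap.toMatrixAlgEquiv e).injective
    ((congrArg Units.val hh).trans (map_one _).symm)
  have h2 : ∀ y ∈ LinearMap.ker l, A h *ᵥ y = y := fun y hy =>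
    congrArg Subtype.val (LinearMap.congr_fun h1 ⟨y, hy⟩)
  refine Matrix.ext_of_mulVec_single fun i => ?_
  generalize (Pi.single i 1 : ι → F) = y
  have h3 := h2 (A h *ᵥ y - y) (by rw [LinearMap.mem_ker, map_sub, hinv, sub_self])
  rw [mulVec_sub] at h3
  rw [map_mul, ← mulVec_mulVec, one_mulVec]
  ext k
  have h4 := congrFun h3 k
  simp only [Pi.sub_apply] at h4
  linear_combination h4 + ((A h *ᵥ y) k - y k) * CharTwo.two_eq_zero (R := F)

end M2

theorem exists_mod_two {H : Type} [Group H] [Finite H] [IsSimpleGroup H] (hna : ¬ IsMulCommutative H)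
    {V : Type} [AddCommGroup V] [Module ℝ V] [FiniteDimensional ℝ V] (ρ : Representation ℝ H V)
    (hρ : ∃ h, ρ h ≠ 1) {n : ℕ} (hn : Module.finrank ℝ V = 2 * n + 1) :
    ∃ (F : Type) (_ : Field F) (_ : Fintype F), CharP F 2 ∧
      ∃ f : H →* GL (Fin (2 * n)) F, Function.Injective f := by
  obtain ⟨O, h2⟩ := M2.exists_val_two
  obtain ⟨A, G, hA, hG, hs, hi, hu, hf⟩ := M2.exists_matrices ρ hn O h2
  obtain ⟨F, _, _, hch, A', G', hs', hi', hu', hf'⟩ := M2.exists_finite O h2 A G hA hG hs hi hu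
  obtain ⟨f, hf1⟩ := M2.exists_hyper A' G' hs' hi' hu' (m := 2 * n) (by rw [Fintype.card_fin, hn])
  refine ⟨F, inferInstance, inferInstance, hch, f, ?_⟩
  obtain ⟨h, h1, ho⟩ := M2.exists_odd hna
  have hρ' : ρ.ker = ⊥ := by
    refine (IsSimpleGroup.eq_bot_or_eq_top_of_normal _ inferInstance).resolve_right fun e => ?_
    obtain ⟨g, hg⟩ := hρ
    exact hg (MonoidHom.mem_ker.1 (e ▸ Subgroup.mem_top g))
  rw [← MonoidHom.ker_eq_bot_iff]
  refine (IsSimpleGroup.eq_bot_or_eq_top_of_normal _ inferInstance).resolve_right fun e => ?_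
  have h3 : f h = 1 := MonoidHom.mem_ker.1 (e ▸ Subgroup.mem_top h)
  have h4 : Odd (orderOf (h * h)) := by
    rw [← pow_two]
    exact Odd.of_dvd_nat ho (orderOf_pow_dvd 2)
  have h5 : h * h ∈ ρ.ker := MonoidHom.mem_ker.2 (hf _ (hf' _ h4 (hf1 h h3)))
  rw [hρ', Subgroup.mem_bot, ← pow_two, ← orderOf_dvd_iff_pow_eq_one] at h5
  have h6 : orderOf h = 1 := Nat.eq_one_of_dvd_coprimes ho.coprime_two_right dvd_rfl h5
  exact h1 (orderOf_eq_one_iff.1 h6)

end Cfsg.Agent.Mon
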