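import Cfsg.Agent.Mon.SigF
import Cfsg.Agent.Mon.SigEa

/-! Package SIGB, the block `(D/P, Rz, Rz)`. -/

set_option autoImplicit false

namespace Cfsg.Agent.Mon

open Cfsg Cfsg.Agent.Spor Matrix

namespace SBz

open S0 SF

theorem dd_add (d e : Cd) : dd d (e + Om) = -dd d e := by
  simp only [dd, om_iff, add_Om_Om]; ring

/-- Signs depending only on the class mod `Ω` can be evaluated at `d`. -/
theorem dd_sg (d e : Cd) (f : Cd → ZMod 2) (hf : ∀ a, f (a + Om) = f a) :
    sg (f e) * dd d e = sg (f d) * dd d e := by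
  by_cases h : e = d
  · rw [h]
  · by_cases h' : e = d + Om
    · rw [h', hf]
    · simp [dd, h, h']

theorem valA {A : Matrix Pt Pt ℝ} (h : Aᵀ = A) (d e : Cd) (i j : Pt) :
    tt (ofA A) (Rz d i) (Rz e j) = dd d e * (A i j + trace A / 8 * if j = i then 1 else 0) := by
  have hs : ∀ (g a : Cd), (single g i 1 : TS) a j =
      (if a = g then 1 else 0) * if j = i then 1 else 0 := fun g a => by
    rw [single_apply]
    by_cases h1 : a = g
    · by_cases h2 : j = i
      · rw [if_pos ⟨h1.symm, h2.symm⟩, if_pos h1, if_pos h2, mul_one]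
      · rw [if_neg fun e => h2 e.2.symm, if_neg h2, mul_zero]
    · rw [if_neg fun e => h1 e.1.symm, if_neg h1, zero_mul]
  have h1 := dd_sg d e q4 q4_add_Om
  have h2 := dd_add d e
  rw [Rz, Rz, tt_smul2, tt_smul3, tt_ATT h, ipT_val]
  simp only [Matrix.sub_mul, Matrix.add_apply, Matrix.sub_apply, Matrix.smul_apply, single_mul_val,
    hs, smul_eq_mul]
  simp only [dd] at h1 h2 ⊢
  linear_combination (A i j + trace A / 8 * if j = i then 1 else 0) *
    (sg (q4 d) * h1 - sg (q4 d) * sg (q4 e) / 2 * h2 +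
      ((if e = d then 1 else 0) - if e = d + Om then 1 else 0) * sg_mul_self (q4 d))

theorem valX {r : La} (hr : sqNorm (r : Pt → ℤ) = 32) (c : ZMod 2) {k l : Pt}
    (h : φ r = (c • Om, cc (e1 k + e1 l))) (d e : Cd) (i j : Pt) :
    tt (Xv (φ r)) (Rz d i) (Rz e j) =
      sg c * sg ((d : Wd) k + (d : Wd) l) * dd d e * SE.Mr r i j := by
  have h0 : (φ r).2 Om = 0 := by
    rw [h, cc_apply, GD.dot_add_left, dot_e1, dot_e1, x2']
  have h1 := dd_sg d e q4 q4_add_Om
  have h2 : SE.Az (φ r) e d = sg c * sg ((d : Wd) k + (d : Wd) l) * dd d e := by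
    simp only [SE.Az, Matrix.sub_apply, gm, h, SE.OO, Prod.fst_add, Prod.snd_add, add_zero,
      cc_apply, GD.dot_add_left, dot_e1, dd]
    rcases zmod2_cases c with rfl | rfl
    · rw [zero_smul, add_zero, zero_add, sg_zero]; split_ifs <;> ring
    · rw [one_smul, cx2, add_zero, sg_one]; split_ifs <;> ring
  rw [SE.tt_Xv_Rz hr h0, h2]
  linear_combination (sg c * sg ((d : Wd) k + (d : Wd) l) * SE.Mr r i j) *
    (sg (q4 d) * h1 + dd d e * sg_mul_self (q4 d))
where x2' : (Om : Wd) k + (Om : Wd) l = 0 := by rw [Om_apply, Om_apply]; rfl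

theorem kp_dd (d e : Cd) (i j : Pt) :
    sg (kp d i + kp e j) * dd d e = sg ((d : Wd) i + (d : Wd) j) * dd d e := by
  rw [dd_sg d e (fun a => kp d i + kp a j) (fun a => by rw [kp_add_Om])]
  congr 2
  simp only [kp, kap]
  linear_combination x2 (q4 d) + x2 ((d : Wd) none)

theorem Mr_val {r : La} {k l : Pt} (a : ℤ)
    (h : ∀ m, (r : Pt → ℤ) m = if m = k then 4 else if m = l then a else 0) (i j : Pt) :
    SE.Mr r i j = ((if i = j then 1 else 0) - (if i = k then 4 else if i = l then (a : ℝ) else 0) *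
      (if j = k then 4 else if j = l then (a : ℝ) else 0) / 4) / 8 := by
  simp only [SE.Mr, Matrix.smul_apply, Matrix.sub_apply, one_apply, Pr, vecMulVec_apply, rv, h,
    smul_eq_mul]
  push_cast
  ring

theorem valx {k l : Pt} (h : k ≠ l) (d e : Cd) (i j : Pt) : tt (Px k l) (Rz d i) (Rz e j) =
    dd d e * ((if k = i ∧ l = j then 1 else 0) + if l = i ∧ k = j then 1 else 0) := by
  rw [Px, valA (by rw [transpose_add, transpose_single, transpose_single, add_comm]), trace_add,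
    trace_single_eq_of_ne _ _ _ h, trace_single_eq_of_ne _ _ _ h.symm, Matrix.add_apply,
    single_apply, single_apply]
  ring

theorem valy {k l : Pt} (h : k ≠ l) (d e : Cd) (i j : Pt) : tt (Py k l) (Rz d i) (Rz e j) =
    sg ((d : Wd) i + (d : Wd) j) * tt (Px k l) (Rz d i) (Rz e j) := by
  obtain ⟨r, h1, h2, h3⟩ := exists_rep_um h
  obtain ⟨s, k1, k2, k3⟩ := exists_rep_up h
  rw [valx h, Py, tt_add1, ← h2, ← k2, valX h1 0 (by rw [h2, zero_smul]; rfl),
    valX k1 1 (by rw [k2, one_smul]; rfl), Mr_val _ h3, Mr_val _ k3, sg_zero, sg_one]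
  by_cases a1 : i = k <;> by_cases a2 : i = l <;> by_cases a3 : j = k <;> by_cases a4 : j = l <;>
    simp_all [eq_comm, add_comm] <;> ring

theorem valz {k l : Pt} (h : k ≠ l) (d e : Cd) {i j : Pt} (hij : i ≠ j) :
    tt (Pz k l) (Rz d i) (Rz e j) = 0 := by
  obtain ⟨r, h1, h2, h3⟩ := exists_rep_um h
  obtain ⟨s, k1, k2, k3⟩ := exists_rep_up h
  rw [Pz, tt_sub1, ← h2, ← k2, valX h1 0 (by rw [h2, zero_smul]; rfl),
    valX k1 1 (by rw [k2, one_smul]; rfl), Mr_val _ h3, Mr_val _ k3, sg_zero, sg_one]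
  by_cases a1 : i = k <;> by_cases a2 : i = l <;> by_cases a3 : j = k <;> by_cases a4 : j = l <;>
    simp_all [eq_comm, add_comm] <;> ring

theorem valz' {k l : Pt} (h : k ≠ l) (d e : Cd) (i j : Pt) :
    ∃ c : ℝ, tt (Pz k l) (Rz d i) (Rz e j) = dd d e * c := by
  obtain ⟨r, h1, h2, -⟩ := exists_rep_um h
  obtain ⟨s, k1, k2, -⟩ := exists_rep_up h
  refine ⟨sg ((d : Wd) k + (d : Wd) l) * (SE.Mr r i j + SE.Mr s i j), ?_⟩
  rw [Pz, tt_sub1, ← h2, ← k2, valX h1 0 (by rw [h2, zero_smul]; rfl),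
    valX k1 1 (by rw [k2, one_smul]; rfl), sg_zero, sg_one]
  ring

end SBz

theorem blkZ_DP' : BlkZ fun a => a.ev ∧ ¬ a.isO := fun a ha hP d i e j => by
  cases a with
  | D k =>
    simp only [Ix.img, Ix.vec]
    rw [Dv, SBz.valA (transpose_single _ _ _), ← mul_assoc, SBz.kp_dd]
    by_cases h : j = i
    · rw [h, S0.x2, sg_zero, one_mul]
    · rw [single_apply, if_neg (fun e => h (e.2.symm.trans e.1)), if_neg h]; ring
  | Px k l =>
    simp only [Ix.img, Ix.vec]
    rw [SBz.valy ha, SBz.valx ha]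
    linear_combination ((if k = i ∧ l = j then 1 else 0) + if l = i ∧ k = j then 1 else 0) *
      (sg ((d : Wd) i + (d : Wd) j) * SBz.kp_dd d e i j +
        SF.dd d e * sg_mul_self ((d : Wd) i + (d : Wd) j))
  | Py k l =>
    simp only [Ix.img, Ix.vec]
    rw [SBz.valy ha, SBz.valx ha, ← mul_assoc, SBz.kp_dd, mul_assoc]
  | Pz k l =>
    simp only [Ix.img, Ix.vec]
    by_cases h : i = j
    · obtain ⟨c, hc⟩ := SBz.valz' ha d e i j
      rw [hc, ← mul_assoc, SBz.kp_dd, h, S0.x2, sg_zero, one_mul]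
    · rw [SBz.valz ha d e h, mul_zero]
  | O _ _ => exact absurd trivial hP.2
  | Rx _ _ => exact hP.1.elim
  | Ry _ _ => exact hP.1.elim
  | Rz _ _ => exact hP.1.elim

end Cfsg.Agent.Mon
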